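import Cfsg.Agent.CharLead.Kernel
import Cfsg.Agent.Char.Integral
import Mathlib

/-! The degree of an irreducible representation divides the index of the centre. -/

set_option autoImplicit false
set_option linter.style.haveILetI false
open scoped ComplexConjugate
open Module

universe u v

namespace Cfsg.Agent.CharLead

open Cfsg.Agent.Char

theorem finrank_dvd_index_of_injOn_central {G : Type u} [Group G] [Finite G]
    {V : Type v} [AddCommGroup V] [Module ℂ V] [FiniteDimensional ℂ V] (ρ : Representation ℂ G V)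
    [ρ.IsIrreducible] (Z : Subgroup G) [Z.Normal] (hZ : Z ≤ Subgroup.center G)
    (hinj : ∀ z ∈ Z, ρ z = 1 → z = 1) : finrank ℂ V ∣ Z.index := by
  classical
  haveI := Fintype.ofFinite G
  haveI := Fintype.ofFinite (G ⧸ Z)
  haveI : Finite (ConjClasses (G ⧸ Z)) := Finite.of_surjective _ ConjClasses.mk_surjective
  haveI := Fintype.ofFinite (ConjClasses (G ⧸ Z))
  have hd : 0 < finrank ℂ V := finrank_pos_of_isIrreducible ρ
  have hscal : ∀ z ∈ Z, ∃ c : ℂ, ρ z = c • LinearMap.id := fun z hz =>
    exists_smul_id_of_commute ρ (ρ z) fun g => by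
      rw [← map_mul, ← map_mul, Subgroup.mem_center_iff.1 (hZ hz) g]
  have hmul : ∀ z ∈ Z, ∃ c : ℂ, ρ z = c • LinearMap.id ∧ c * conj c = 1 ∧
      ∀ g : G, ρ.character (g * z) = c * ρ.character g := by
    intro z hz
    obtain ⟨c, hc⟩ := hscal z hz
    have hpow : ∀ k : ℕ, ρ (z ^ k) = c ^ k • LinearMap.id := by
      intro k
      induction k with
      | zero => rw [pow_zero, pow_zero, map_one, one_smul]; rfl
      | succ k ih => rw [pow_succ, map_mul, ih, hc, pow_succ, smul_mul_smul_comm]; rfl
    have h1 := hpow (orderOf z)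
    rw [pow_orderOf_eq_one, map_one] at h1
    have h2 : c ^ orderOf z = 1 := by
      have := congrArg (LinearMap.trace ℂ V) h1
      rw [map_smul, smul_eq_mul, LinearMap.trace_id, LinearMap.trace_one] at this
      exact (mul_eq_right₀ (by exact_mod_cast hd.ne')).1 this.symm
    refine ⟨c, hc, ?_, fun g => ?_⟩
    · rw [Complex.mul_conj', Complex.norm_eq_one_of_pow_eq_one h2 (orderOf_pos z).ne']
      norm_num
    · show LinearMap.trace ℂ V (ρ (g * z)) = c * LinearMap.trace ℂ V (ρ g)
      rw [map_mul, hc, mul_smul_comm, map_smul, smul_eq_mul]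
      rfl
  have hval : ∀ a b : G, (QuotientGroup.mk a : G ⧸ Z) = QuotientGroup.mk b →
      ρ.character b * conj (ρ.character b) = ρ.character a * conj (ρ.character a) := by
    intro a b hab
    obtain ⟨c, -, hc, hc'⟩ := hmul _ (QuotientGroup.eq.1 hab)
    have := hc' a
    rw [mul_inv_cancel_left] at this
    rw [this, map_mul]
    linear_combination (ρ.character a * conj (ρ.character a)) * hc
  let val : G ⧸ Z → ℂ := fun q => ρ.character q.out * conj (ρ.character q.out)
  have hvmk : ∀ g : G, val (QuotientGroup.mk g) = ρ.character g * conj (ρ.character g) := fun g =>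
    (hval _ _ (QuotientGroup.out_eq' _).symm)
  have hclass : ∀ x g : G, val (QuotientGroup.mk (x * g * x⁻¹)) = val (QuotientGroup.mk g) := fun x g => by
    rw [hvmk, hvmk, ρ.char_conj g x]
  have hsum : ∑ q : G ⧸ Z, val q = (Z.index : ℂ) := by
    have h1 := classInner_irr_self (⟨ρ.character, isIrrCharacter_of_rep ρ⟩ : Cfsg.IrrCharacter G)
    simp only [Cfsg.classInner] at h1
    rw [inv_mul_eq_iff_eq_mul₀ (by exact_mod_cast Nat.card_pos.ne'), mul_one] at h1
    rw [← Finset.sum_fiberwise Finset.univ (QuotientGroup.mk : G → G ⧸ Z)] at h1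
    have h2 : ∀ q : G ⧸ Z, ∑ g ∈ Finset.univ.filter (fun g : G => (g : G ⧸ Z) = q),
        ρ.character g * conj (ρ.character g) = (Nat.card Z : ℂ) * val q := by
      intro q
      have hc : (Finset.univ.filter fun g : G => (g : G ⧸ Z) = q).card = Nat.card Z := by
        rw [← Fintype.card_subtype, ← Nat.card_eq_fintype_card]
        refine (Nat.card_congr ?_).symm
        exact
          { toFun := fun z => ⟨q.out * z, by
              rw [QuotientGroup.mk_mul_of_mem _ z.2, QuotientGroup.out_eq']⟩
            invFun := fun g => ⟨q.out⁻¹ * g.1, QuotientGroup.eq.1 ((QuotientGroup.out_eq' q).trans g.2.symm)⟩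
            left_inv := fun z => Subtype.ext (inv_mul_cancel_left _ _)
            right_inv := fun g => Subtype.ext (mul_inv_cancel_left _ _) }
      rw [Finset.sum_congr rfl (fun g hg => by
        rw [← hvmk g, (Finset.mem_filter.1 hg).2] : ∀ g ∈ Finset.univ.filter (fun g : G => (g : G ⧸ Z) = q),
        ρ.character g * conj (ρ.character g) = val q), Finset.sum_const, hc, nsmul_eq_mul]
    simp only [h2] at h1
    rw [← Finset.mul_sum, ← Z.card_mul_index, Nat.cast_mul] at h1
    exact mul_left_cancel₀ (by exact_mod_cast Nat.card_pos.ne') h1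
  refine nat_dvd_of_isIntegral hd.ne' ?_
  rw [← hsum, ← Finset.sum_fiberwise Finset.univ ConjClasses.mk, Finset.sum_div]
  refine IsIntegral.sum _ fun C _ => ?_
  obtain ⟨q, rfl⟩ := ConjClasses.mk_surjective C
  obtain ⟨g, rfl⟩ := QuotientGroup.mk_surjective q
  have hfilter : (Finset.univ.filter fun x : G ⧸ Z => ConjClasses.mk x = ConjClasses.mk (g : G ⧸ Z))
      = Finset.univ.filter fun x => IsConj (g : G ⧸ Z) x := by
    refine Finset.filter_congr fun x _ => ?_
    rw [ConjClasses.mk_eq_mk_iff_isConj]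
    exact isConj_comm
  rw [hfilter, Finset.sum_congr rfl (fun x hx => by
    obtain ⟨y, hy⟩ := isConj_iff.1 (Finset.mem_filter.1 hx).2
    obtain ⟨y, rfl⟩ := QuotientGroup.mk_surjective y
    rw [← hy, ← QuotientGroup.mk_inv, ← QuotientGroup.mk_mul, ← QuotientGroup.mk_mul, hclass] :
    ∀ x ∈ Finset.univ.filter (fun x => IsConj (g : G ⧸ Z) x), val x = val (g : G ⧸ Z)),
    Finset.sum_const, card_conj_set, nsmul_eq_mul, hvmk]
  by_cases hg0 : ρ.character g = 0
  · rw [hg0, zero_mul, mul_zero, zero_div]
    exact isIntegral_zero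
  have hidx : (Subgroup.centralizer ({(g : G ⧸ Z)} : Set (G ⧸ Z))).index =
      (Subgroup.centralizer ({g} : Set G)).index := by
    rw [← Subgroup.index_comap_of_surjective _ (QuotientGroup.mk'_surjective Z)]
    congr 1
    ext x
    rw [Subgroup.mem_comap, Subgroup.mem_centralizer_singleton_iff, Subgroup.mem_centralizer_singleton_iff]
    constructor
    · intro h
      have hz : g⁻¹ * (x * g * x⁻¹) ∈ Z := by
        rw [← QuotientGroup.eq]
        rw [QuotientGroup.mk'_apply] at h
        rw [QuotientGroup.mk_mul, QuotientGroup.mk_mul, QuotientGroup.mk_inv, h, mul_inv_cancel_right]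
      obtain ⟨c, hc, -, hc'⟩ := hmul _ hz
      have h1 := hc' g
      rw [mul_inv_cancel_left, ρ.char_conj g x] at h1
      have hc1 : c = 1 := (mul_eq_right₀ hg0).1 h1.symm
      have := hinj _ hz (by rw [hc, hc1, one_smul]; rfl)
      rw [inv_mul_eq_one] at this
      exact (eq_mul_inv_iff_mul_eq.1 this).symm
    · intro h
      rw [QuotientGroup.mk'_apply, ← QuotientGroup.mk_mul, ← QuotientGroup.mk_mul, h]
  rw [hidx, ← mul_assoc, mul_div_right_comm]
  refine (isIntegral_centralValue ρ g).mul ?_
  haveI := Fintype.ofFinite G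
  have : conj (ρ.character g) = ρ.character g⁻¹ := (char_inv ρ g).symm
  rw [this]
  exact isIntegral_char ρ g⁻¹

/-- The degree of an irreducible representation divides the index of a central subgroup. -/
theorem finrank_dvd_index_central {G : Type u} [Group G] [Finite G]
    {V : Type v} [AddCommGroup V] [Module ℂ V] [FiniteDimensional ℂ V] (ρ : Representation ℂ G V)
    [ρ.IsIrreducible] (Z : Subgroup G) (hZ : Z ≤ Subgroup.center G) : finrank ℂ V ∣ Z.index := by
  classical
  let K : Subgroup G := Z ⊓ MonoidHom.ker ρ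
  haveI : K.Normal := ⟨fun k hk g => by
    rw [(Subgroup.mem_center_iff.1 (hZ hk.1) g), mul_inv_cancel_right]
    exact hk⟩
  obtain ⟨ψ, ⟨n, σ, hσ, rfl⟩, hψ⟩ := isIrrCharacter_descend K (isIrrCharacter_of_rep ρ) fun k hk =>
    (rep_eq_one_iff_char ρ k).2 hk.2
  haveI := hσ
  have hn : finrank ℂ V = n := by
    have := hψ 1
    rw [map_one, ρ.char_one, σ.char_one, Module.finrank_fin_fun] at this
    exact_mod_cast this
  let Zb := Z.map (QuotientGroup.mk' K)
  have hZb : Zb ≤ Subgroup.center (G ⧸ K) := by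
    rintro _ ⟨z, hz, rfl⟩
    refine Subgroup.mem_center_iff.2 fun q => ?_
    obtain ⟨g, rfl⟩ := QuotientGroup.mk'_surjective K q
    rw [← map_mul, ← map_mul, Subgroup.mem_center_iff.1 (hZ hz) g]
  haveI : Zb.Normal := ⟨fun k hk g => by
    rw [(Subgroup.mem_center_iff.1 (hZb hk) g), mul_inv_cancel_right]
    exact hk⟩
  have h := finrank_dvd_index_of_injOn_central σ Zb hZb (by
    rintro _ ⟨z, hz, rfl⟩ hz1
    refine (QuotientGroup.eq_one_iff z).2 ⟨hz, (rep_eq_one_iff_char ρ z).1 ?_⟩
    rw [hψ, hψ 1, map_one]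
    exact (rep_eq_one_iff_char σ _).2 hz1)
  rw [Module.finrank_fin_fun] at h
  rw [hn]
  refine h.trans (dvd_of_eq ?_)
  rw [← Subgroup.index_comap_of_surjective Zb (QuotientGroup.mk'_surjective K)]
  congr 1
  rw [Subgroup.comap_map_eq, QuotientGroup.ker_mk', sup_of_le_left inf_le_left]

end Cfsg.Agent.CharLead
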