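import Cfsg.Agent.CharLead.Basic
import Cfsg.Agent.CharLead.Kernel
import Cfsg.Agent.Char.Induced
import Mathlib

/-! The Clifford correspondence. -/

set_option autoImplicit false
set_option linter.style.haveILetI false
set_option maxHeartbeats 1000000
open scoped ComplexConjugate
open Cfsg.Agent.Char

universe u

namespace Cfsg.Agent.CharLead

variable {G : Type u} [Group G]

/-- The inertia group of a function on a normal subgroup. -/
def inertiaGroup (H : Subgroup G) [H.Normal] (θ : H → ℂ) : Subgroup G where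
  carrier := {g | conjFn H θ g = θ}
  one_mem' := conjFn_one H θ
  mul_mem' := fun {a b} ha hb => by
    show conjFn H θ (a * b) = θ
    rw [conjFn_mul, show conjFn H θ a = θ from ha]
    exact hb
  inv_mem' := fun {a} ha => by
    show conjFn H θ a⁻¹ = θ
    conv_lhs => rw [← show conjFn H θ a = θ from ha, ← conjFn_mul, mul_inv_cancel, conjFn_one]

theorem mem_inertiaGroup (H : Subgroup G) [H.Normal] (θ : H → ℂ) (g : G) :
    g ∈ inertiaGroup H θ ↔ conjFn H θ g = θ := Iff.rfl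

theorem le_inertiaGroup [Finite G] (H : Subgroup G) [hH : H.Normal] (θ : Cfsg.IrrCharacter H) :
    H ≤ inertiaGroup H (θ : H → ℂ) := fun a ha => by
  funext x
  show (θ : H → ℂ) ⟨a * x * a⁻¹, hH.conj_mem x x.2 a⟩ = (θ : H → ℂ) x
  exact (irr_eq_of_isConj θ (isConj_iff.2 ⟨(⟨a, ha⟩ : H), rfl⟩)).symm

/-- The number of conjugates is the index of the inertia group. -/
theorem ncard_conjugates [Finite G] (H : Subgroup G) [H.Normal] (θ : H → ℂ) :
    {ψ : H → ℂ | ∃ g : G, ψ = conjFn H θ g}.ncard = (inertiaGroup H θ).index := by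
  set T := inertiaGroup H θ
  have hT : ∀ x y : G, conjFn H θ x = conjFn H θ y ↔ x * y⁻¹ ∈ T := by
    intro x y
    rw [mem_inertiaGroup]
    constructor
    · intro h
      rw [conjFn_mul, h, ← conjFn_mul, mul_inv_cancel, conjFn_one]
    · intro h
      conv_rhs => rw [← h, ← conjFn_mul, inv_mul_cancel_right]
  rw [Subgroup.index, ← Nat.card_coe_set_eq]
  refine (Nat.card_eq_of_bijective (fun q : G ⧸ T => (⟨conjFn H θ q.out⁻¹, _, rfl⟩ :
    {ψ : H → ℂ | ∃ g : G, ψ = conjFn H θ g})) ⟨fun p q h => ?_, ?_⟩).symm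
  · have h' := (hT _ _).1 (congrArg Subtype.val h)
    rw [inv_inv] at h'
    rw [← QuotientGroup.out_eq' p, ← QuotientGroup.out_eq' q]
    exact QuotientGroup.eq.2 h'
  · rintro ⟨_, g, rfl⟩
    refine ⟨QuotientGroup.mk g⁻¹, Subtype.ext ((hT _ _).2 ?_)⟩
    exact QuotientGroup.eq.1 (QuotientGroup.out_eq' (QuotientGroup.mk g⁻¹ : G ⧸ T))

theorem degree_eq_mul_index [Fintype G] (H : Subgroup G) [hH : H.Normal] [Fintype H]
    (χ : Cfsg.IrrCharacter G) (θ : Cfsg.IrrCharacter H)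
    (hcon : Cfsg.classInner (fun n : H => (χ : G → ℂ) n) (θ : H → ℂ) ≠ 0) :
    (χ : G → ℂ) 1 = Cfsg.classInner (fun n : H => (χ : G → ℂ) n) (θ : H → ℂ) *
      ((inertiaGroup H (θ : H → ℂ)).index : ℂ) * (θ : H → ℂ) 1 := by
  classical
  have h := congrFun (res_eq_smul_sum_conj H χ θ hcon) 1
  rw [Pi.smul_apply, smul_eq_mul, OneMemClass.coe_one] at h
  have hfin : ({ψ : H → ℂ | ∃ g : G, ψ = conjFn H (θ : H → ℂ) g}).Finite :=
    Set.Finite.subset (Set.finite_range fun g : G => conjFn H (θ : H → ℂ) g) (by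
      rintro ψ ⟨g, rfl⟩; exact ⟨g, rfl⟩)
  rw [finsum_mem_eq_finite_toFinset_sum _ hfin, Finset.sum_apply, Finset.sum_congr rfl (fun ψ hψ => by
    obtain ⟨g, rfl⟩ := hfin.mem_toFinset.1 hψ
    show (θ : H → ℂ) ⟨g * ((1 : H) : G) * g⁻¹, hH.conj_mem _ (1 : H).2 g⟩ = (θ : H → ℂ) 1
    have e : (⟨g * ((1 : H) : G) * g⁻¹, hH.conj_mem _ (1 : H).2 g⟩ : H) = 1 := Subtype.ext (by simp)
    rw [e] : ∀ ψ ∈ hfin.toFinset, ψ 1 = (θ : H → ℂ) 1), Finset.sum_const, nsmul_eq_mul,
    ← Set.ncard_eq_toFinset_card _ hfin, ncard_conjugates] at h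
  rw [h]
  ring

/-- The Clifford correspondence, strong form. -/
theorem clifford_core [Fintype G] (H : Subgroup G) [hH : H.Normal] [Fintype H]
    (θ : Cfsg.IrrCharacter H) (T : Subgroup G) [Fintype T]
    (hT : ∀ g : G, g ∈ T ↔ conjFn H (θ : H → ℂ) g = θ) (hHT : H ≤ T) (χ : Cfsg.IrrCharacter G)
    (hcon : Cfsg.classInner (fun n : H => (χ : G → ℂ) n) (θ : H → ℂ) ≠ 0) :
    (∃ η : Cfsg.IrrCharacter T, Cfsg.classInner (fun t : T => (χ : G → ℂ) t) (η : T → ℂ) ≠ 0 ∧
        Cfsg.classInner (fun n : H => (η : T → ℂ) ⟨(n : G), hHT n.2⟩) (θ : H → ℂ) ≠ 0) ∧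
      ∀ η : Cfsg.IrrCharacter T, Cfsg.classInner (fun t : T => (χ : G → ℂ) t) (η : T → ℂ) ≠ 0 →
        Cfsg.classInner (fun n : H => (η : T → ℂ) ⟨(n : G), hHT n.2⟩) (θ : H → ℂ) ≠ 0 →
          (Cfsg.indFun T (η : T → ℂ) = (χ : G → ℂ) ∧
            Cfsg.classInner (fun n : H => (η : T → ℂ) ⟨(n : G), hHT n.2⟩) (θ : H → ℂ)
              = Cfsg.classInner (fun n : H => (χ : G → ℂ) n) (θ : H → ℂ)) ∧
          ∀ η' : Cfsg.IrrCharacter T, Cfsg.classInner (fun t : T => (χ : G → ℂ) t) (η' : T → ℂ) ≠ 0 →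
            Cfsg.classInner (fun n : H => (η' : T → ℂ) ⟨(n : G), hHT n.2⟩) (θ : H → ℂ) ≠ 0 → η' = η := by
  classical
  obtain ⟨d, hd0, hd⟩ := irr_apply_one χ
  obtain ⟨t, ht0, ht⟩ := irr_apply_one θ
  obtain ⟨e, he⟩ := exists_nat_classInner
    (isCharacter_comp (isCharacter_of_isIrrCharacter χ.2) H.subtype) θ
  have he' : Cfsg.classInner (fun n : H => (χ : G → ℂ) n) (θ : H → ℂ) = e := he
  have hTeq : inertiaGroup H (θ : H → ℂ) = T := by
    ext g
    rw [mem_inertiaGroup, hT]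
  have hde : d = e * T.index * t := by
    have h := degree_eq_mul_index H χ θ hcon
    rw [he', hd, ht, hTeq] at h
    exact_mod_cast h
  let A' : Subgroup T := H.subgroupOf T
  haveI := Fintype.ofFinite A'
  let ε : A' ≃* H := Subgroup.subgroupOfEquivOfLe hHT
  let θ' : Cfsg.IrrCharacter A' := ⟨fun a => (θ : H → ℂ) (ε a),
    isIrrCharacter_comp_of_surjective θ.2 ε.toMonoidHom ε.surjective⟩
  have htrans : ∀ f : H → ℂ, Cfsg.classInner (fun a : A' => f (ε a)) (θ' : A' → ℂ)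
      = Cfsg.classInner f (θ : H → ℂ) := by
    intro f
    simp only [Cfsg.classInner]
    rw [Nat.card_congr ε.toEquiv]
    congr 1
    exact Equiv.sum_comp ε.toEquiv (fun a : H => f a * (starRingEnd ℂ) ((θ : H → ℂ) a))
  have hresT : Cfsg.IsCharacter T (fun t : T => (χ : G → ℂ) t) :=
    isCharacter_comp (isCharacter_of_isIrrCharacter χ.2) T.subtype
  choose m hm using fun η : Cfsg.IrrCharacter T => exists_nat_classInner hresT η
  choose b hb using fun η : Cfsg.IrrCharacter T => exists_nat_classInner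
    (isCharacter_comp (isCharacter_of_isIrrCharacter η.2) A'.subtype) θ'
  have hb' : ∀ η : Cfsg.IrrCharacter T,
      Cfsg.classInner (fun a : A' => (η : T → ℂ) a) (θ' : A' → ℂ) = b η := hb
  have hbH : ∀ η : Cfsg.IrrCharacter T,
      Cfsg.classInner (fun n : H => (η : T → ℂ) ⟨(n : G), hHT n.2⟩) (θ : H → ℂ) = b η := fun η => by
    rw [← htrans]
    exact hb' η
  have hexp : (fun t : T => (χ : G → ℂ) t) = ∑ η : Cfsg.IrrCharacter T, (m η : ℂ) • (η : T → ℂ) := by
    conv_lhs => rw [classFunction_expand (isClassFunction_of_isCharacter hresT)]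
    simp only [hm]
  have hsum : e = ∑ η : Cfsg.IrrCharacter T, m η * b η := by
    have h := htrans (fun a : H => (χ : G → ℂ) a)
    rw [he', show (fun a : A' => (χ : G → ℂ) (ε a : H)) = ∑ η : Cfsg.IrrCharacter T,
        (m η : ℂ) • fun a : A' => (η : T → ℂ) a from by
      funext a
      have h1 := congrFun hexp (a : T)
      rw [Finset.sum_apply] at h1 ⊢
      exact h1, classInner_sum_left] at h
    simp only [classInner_smul_left, hb'] at h
    exact_mod_cast h.symm
  have he0 : e ≠ 0 := fun h => hcon (by rw [he', h, Nat.cast_zero])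
  refine ⟨?_, fun η hm0 hb0 => ?_⟩
  · obtain ⟨η, -, hη⟩ := Finset.exists_ne_zero_of_sum_ne_zero (hsum ▸ he0)
    obtain ⟨hmη, hbη⟩ := mul_ne_zero_iff.1 hη
    exact ⟨η, by rw [hm]; exact_mod_cast hmη, by rw [hbH]; exact_mod_cast hbη⟩
  have hmη : m η ≠ 0 := fun h => hm0 (by rw [hm, h, Nat.cast_zero])
  have hbη : b η ≠ 0 := fun h => hb0 (by rw [hbH, h, Nat.cast_zero])
  obtain ⟨k, hk0, hk⟩ := irr_apply_one η
  have hkb : k = b η * t := by
    have h := congrFun (res_eq_smul_sum_conj A' η θ' (by rw [hb']; exact_mod_cast hbη)) 1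
    have hset : {ψ : A' → ℂ | ∃ g : T, ψ = conjFn A' (θ' : A' → ℂ) g} = {(θ' : A' → ℂ)} := by
      ext ψ
      refine ⟨?_, fun e => ⟨1, by rw [conjFn_one]; exact e⟩⟩
      rintro ⟨g, rfl⟩
      funext a
      exact congrFun ((hT g).1 g.2) (ε a)
    rw [hset, finsum_mem_singleton, Pi.smul_apply, smul_eq_mul, hb', OneMemClass.coe_one, hk,
      show (θ' : A' → ℂ) 1 = t by
        show (θ : H → ℂ) (ε 1) = t
        rw [map_one, ht]] at h
    exact_mod_cast h
  have hind : Cfsg.IsCharacter G (Cfsg.indFun T (η : T → ℂ)) :=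
    indFun_isCharacter T (isCharacter_of_isIrrCharacter η.2)
  choose c hc using fun ξ : Cfsg.IrrCharacter G => exists_nat_classInner hind ξ
  choose u hu0 hu using fun ξ : Cfsg.IrrCharacter G => irr_apply_one ξ
  have hcχ : c χ = m η := by
    have h := classInner_indFun T (η : T → ℂ) (irr_isClassFunction χ)
    rw [hc, ← classInner_conj_symm, hm] at h
    rw [Complex.conj_natCast] at h
    exact_mod_cast h
  have huχ : u χ = d := by
    have := hu χ
    rw [hd] at this
    exact_mod_cast this.symm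
  have htot : T.index * k = ∑ ξ : Cfsg.IrrCharacter G, c ξ * u ξ := by
    have h := congrFun (classFunction_expand (indFun_isClassFunction T (η : T → ℂ))) 1
    rw [indFun_apply_one, hk, Finset.sum_apply] at h
    simp only [Pi.smul_apply, smul_eq_mul, hc, hu] at h
    exact_mod_cast h
  have hble : b η ≤ e := by
    rw [hsum]
    exact le_trans (Nat.le_mul_of_pos_left _ (Nat.pos_of_ne_zero hmη))
      (Finset.single_le_sum (fun ξ _ => Nat.zero_le (m ξ * b ξ)) (Finset.mem_univ η))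
  rw [← Finset.add_sum_erase _ _ (Finset.mem_univ χ), huχ, hcχ] at htot
  set R := ∑ ξ ∈ Finset.univ.erase χ, c ξ * u ξ with hR
  have h1 : d ≤ m η * d := Nat.le_mul_of_pos_left _ (Nat.pos_of_ne_zero hmη)
  have h2 : T.index * k ≤ d := by
    rw [hde, hkb]
    calc T.index * (b η * t) = b η * (T.index * t) := by ring
      _ ≤ e * (T.index * t) := Nat.mul_le_mul_right _ hble
      _ = e * T.index * t := by ring
  have hmd : m η * d = d := by omega
  have hR0 : R = 0 := by omega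
  have hm1 : m η = 1 := (mul_eq_right₀ (show d ≠ 0 by omega)).1 hmd
  have hbe : b η = e := by
    have h3 : T.index * k = d := by omega
    rw [hde, hkb] at h3
    have h4 : (T.index * t) * b η = (T.index * t) * e := by linear_combination h3
    exact Nat.eq_of_mul_eq_mul_left (Nat.mul_pos (Nat.pos_of_ne_zero T.index_ne_zero_of_finite) ht0) h4
  refine ⟨⟨?_, by rw [hbH, hbe, he']⟩, fun η' hm' hb1 => ?_⟩
  swap
  · by_contra hne
    have hz : m η' * b η' = 0 := by
      have h := hsum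
      rw [← Finset.add_sum_erase _ _ (Finset.mem_univ η), hm1, hbe, one_mul] at h
      exact (Finset.sum_eq_zero_iff.1 (by omega : ∑ ξ ∈ Finset.univ.erase η, m ξ * b ξ = 0)) η'
        (Finset.mem_erase.2 ⟨hne, Finset.mem_univ _⟩)
    rcases mul_eq_zero.1 hz with h | h
    · exact hm' (by rw [hm, h, Nat.cast_zero])
    · exact hb1 (by rw [hbH, h, Nat.cast_zero])
  conv_lhs => rw [classFunction_expand (indFun_isClassFunction T (η : T → ℂ))]
  rw [Finset.sum_eq_single χ]
  · rw [hc, hcχ, hm1, Nat.cast_one, one_smul]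
  · intro ξ _ hne
    have h := (Finset.sum_eq_zero_iff.1 hR0) ξ (Finset.mem_erase.2 ⟨hne, Finset.mem_univ _⟩)
    rw [hc, (mul_eq_zero.1 h).resolve_right (hu0 ξ).ne', Nat.cast_zero, zero_smul]
  · simp

/-- The Clifford correspondence: a constituent is induced from the inertia group. -/
theorem clifford_correspondence [Fintype G] (H : Subgroup G) [hH : H.Normal] [Fintype H]
    (θ : Cfsg.IrrCharacter H) (T : Subgroup G) [Fintype T]
    (hT : ∀ g : G, g ∈ T ↔ conjFn H (θ : H → ℂ) g = θ) (hHT : H ≤ T) (χ : Cfsg.IrrCharacter G)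
    (hcon : Cfsg.classInner (fun n : H => (χ : G → ℂ) n) (θ : H → ℂ) ≠ 0) :
    ∃ ψ : Cfsg.IrrCharacter T, Cfsg.indFun T (ψ : T → ℂ) = (χ : G → ℂ) ∧
      Cfsg.classInner (fun n : H => (ψ : T → ℂ) ⟨(n : G), hHT n.2⟩) (θ : H → ℂ)
        = Cfsg.classInner (fun n : H => (χ : G → ℂ) n) (θ : H → ℂ) := by
  obtain ⟨⟨η, h1, h2⟩, hall⟩ := clifford_core H θ T hT hHT χ hcon
  exact ⟨η, (hall η h1 h2).1⟩

end Cfsg.Agent.CharLead
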