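import Cfsg.Agent.CharLead.Linear
import Cfsg.Agent.Char.Induced
import Cfsg.Agent.Char.BrauerElem
import Mathlib

/-! Integer combinations of functions induced from linear characters, as lists. -/

set_option autoImplicit false
set_option linter.style.haveILetI false
open Cfsg.Agent.Char

universe u

namespace Cfsg.Agent.CharLead

variable {G : Type u} [Group G] [Fintype G]

/-- The span of the functions induced from linear characters of subgroups satisfying `P`. -/
def linSpan (P : Subgroup G → Prop) : AddSubgroup (G → ℂ) :=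
  AddSubgroup.closure {f | ∃ (A : Subgroup G) (lam : A →* ℂˣ), P A ∧ f = Cfsg.indFun A (fun a => (lam a : ℂ))}

theorem linSpan_list {P : Subgroup G → Prop} {f : G → ℂ} (hf : f ∈ linSpan P) :
    ∃ l : List ((A : Subgroup G) × ((A →* ℂˣ) × ℤ)), (∀ t ∈ l, P t.1) ∧
      f = (l.map fun t => (t.2.2 : ℂ) • Cfsg.indFun t.1 (fun a => (t.2.1 a : ℂ))).sum := by
  induction hf using AddSubgroup.closure_induction with
  | mem f hf =>
    obtain ⟨A, lam, hA, rfl⟩ := hf
    exact ⟨[⟨A, lam, 1⟩], fun t ht => by rw [List.mem_singleton] at ht; rw [ht]; exact hA, by simp⟩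
  | zero => exact ⟨[], fun t ht => absurd ht List.not_mem_nil, by simp⟩
  | add u v _ _ hu hv =>
    obtain ⟨l, hl, rfl⟩ := hu
    obtain ⟨l', hl', rfl⟩ := hv
    exact ⟨l ++ l', fun t ht => (List.mem_append.1 ht).elim (hl t) (hl' t), by simp⟩
  | neg u hmem hu =>
    clear hmem
    obtain ⟨l, hl, rfl⟩ := hu
    refine ⟨l.map fun t => ⟨t.1, t.2.1, -t.2.2⟩, fun t ht => ?_, ?_⟩
    · obtain ⟨s, hs, rfl⟩ := List.mem_map.1 ht
      exact hl s hs
    · clear hl
      induction l with
      | nil => simp
      | cons t l ih =>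
        simp only [List.map_cons, List.sum_cons, ← ih, Int.cast_neg, neg_smul, neg_add]

theorem indFun_mem_linSpan_of_abelian {P : Subgroup G → Prop} {A : Subgroup G} (hA : P A)
    (hab : ∀ a b : A, a * b = b * a) {φ : A → ℂ} (hφ : Cfsg.IsCharacter A φ) :
    Cfsg.indFun A φ ∈ linSpan P := by
  classical
  haveI := Fintype.ofFinite A
  choose c hc using fun η : Cfsg.IrrCharacter A => exists_nat_classInner hφ η
  rw [show φ = ∑ η : Cfsg.IrrCharacter A, (c η : ℂ) • (η : A → ℂ) by
    conv_lhs => rw [classFunction_expand (isClassFunction_of_isCharacter hφ)]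
    simp only [hc]]
  have hsum : ∀ s : Finset (Cfsg.IrrCharacter A),
      Cfsg.indFun A (∑ η ∈ s, (c η : ℂ) • (η : A → ℂ)) ∈ linSpan P := by
    intro s
    induction s using Finset.induction_on with
    | empty =>
      rw [Finset.sum_empty, show (0 : A → ℂ) = (0 : ℂ) • (fun _ => 0) from (zero_smul ℂ _).symm, indFun_smul, zero_smul]
      exact zero_mem _
    | @insert η s hη ih =>
      rw [Finset.sum_insert hη, indFun_add, indFun_smul, Nat.cast_smul_eq_nsmul]
      refine add_mem (AddSubgroup.nsmul_mem _ ?_ _) ih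
      have h1 : (η : A → ℂ) 1 = 1 := irr_apply_one_eq_one_of_comm hab η
      let f : A →* ℂ := { toFun := (η : A → ℂ), map_one' := h1, map_mul' := irr_mul_of_apply_one_eq_one η.2 h1 }
      exact AddSubgroup.subset_closure ⟨A, f.toHomUnits, hA, rfl⟩
  exact hsum _

end Cfsg.Agent.CharLead
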