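import Cfsg.Agent.CharLead.Basic
import Mathlib.GroupTheory.FiniteAbelian.Duality
import Mathlib.Analysis.Complex.Polynomial.Basic
import Mathlib.RingTheory.RootsOfUnity.AlgebraicallyClosed

/-!
Linear characters, abelian subgroups.
-/

set_option autoImplicit false
set_option linter.all false

open scoped ComplexConjugate
open Representation Module

namespace Cfsg.Agent.CharLead

open Cfsg.Agent.Char

universe u v

variable {G : Type u} [Group G]

theorem irr_mul_of_apply_one_eq_one {χ : G → ℂ} (hχ : Cfsg.IsIrrCharacter G χ) (h1 : χ 1 = 1)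
    (g h : G) : χ (g * h) = χ g * χ h := by
  obtain ⟨n, ρ, -, rfl⟩ := hχ
  have hn : n = 1 := by
    rw [Representation.char_one] at h1
    simpa using h1
  subst hn
  have key : ∀ f f' : Module.End ℂ (Fin 1 → ℂ),
      LinearMap.trace ℂ _ (f * f') = LinearMap.trace ℂ _ f * LinearMap.trace ℂ _ f' := by
    intro f f'
    simp [LinearMap.trace_eq_matrix_trace ℂ (Pi.basisFun ℂ (Fin 1)), Matrix.trace,
      Matrix.mul_apply, LinearMap.toMatrix_mul]
    have hv : f' (Pi.single 0 1) = (f' (Pi.single 0 1) 0) • (Pi.single 0 1 : Fin 1 → ℂ) := by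
      ext i
      fin_cases i
      simp
    conv_lhs => rw [hv, map_smul]
    simp [mul_comm]
  show LinearMap.trace ℂ _ (ρ (g * h)) = _
  rw [map_mul, key]
  rfl

theorem card_linear [Finite G] :
    Nat.card {χ : Cfsg.IrrCharacter G // (χ : G → ℂ) 1 = 1} = (commutator G).index := by
  haveI : Finite (Abelianization G) := Quotient.finite _
  have hcard : Nat.card (Abelianization G →* ℂˣ) = (commutator G).index := by
    haveI : NeZero (Monoid.exponent (Abelianization G) : ℂ) :=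
      ⟨by exact_mod_cast Monoid.exponent_ne_zero_of_finite⟩
    rw [CommGroup.card_monoidHom_of_hasEnoughRootsOfUnity (Abelianization G) ℂ]
    rfl
  rw [← hcard, ← Nat.card_congr (Abelianization.lift (G := G) (A := ℂˣ))]
  refine (Nat.card_eq_of_bijective (fun f : G →* ℂˣ =>
    (⟨⟨fun g => ((Units.coeHom ℂ).comp f) g, isIrrCharacter_hom _⟩, by simp⟩ :
      {χ : Cfsg.IrrCharacter G // (χ : G → ℂ) 1 = 1})) ⟨?_, ?_⟩).symm
  · intro f f' h
    ext g
    exact congrFun (congrArg (fun c : {χ : Cfsg.IrrCharacter G // (χ : G → ℂ) 1 = 1} =>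
      (c.1.1 : G → ℂ)) h) g
  · rintro ⟨⟨χ, hχ⟩, h1⟩
    let m : G →* ℂ :=
      { toFun := χ
        map_one' := h1
        map_mul' := irr_mul_of_apply_one_eq_one hχ h1 }
    exact ⟨m.toHomUnits, Subtype.ext (Subtype.ext (funext fun g => m.coe_toHomUnits g))⟩

theorem irr_apply_one_eq_one_of_comm {A : Type u} [Group A] [Finite A]
    (hc : ∀ a b : A, a * b = b * a) (χ : Cfsg.IrrCharacter A) : (χ : A → ℂ) 1 = 1 := by
  classical
  have hinj : Function.Injective (ConjClasses.mk : A → ConjClasses A) := by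
    intro a b h
    obtain ⟨c, hc'⟩ := isConj_iff.1 (ConjClasses.mk_eq_mk_iff_isConj.1 h)
    rw [hc c a, mul_inv_cancel_right] at hc'
    exact hc'
  have hcard : Nat.card (Cfsg.IrrCharacter A) = Nat.card A := by
    rw [card_irr_eq_card_conjClasses]
    exact (Nat.card_eq_of_bijective _ ⟨hinj, ConjClasses.mk_surjective⟩).symm
  choose d hd0 hd using fun ψ : Cfsg.IrrCharacter A => irr_apply_one ψ
  have h := sum_irr_sq (G := A)
  simp only [hd] at h
  have hsum : ∑ ψ : Cfsg.IrrCharacter A, d ψ ^ 2 = Nat.card A := by exact_mod_cast h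
  by_contra hne
  rw [hd] at hne
  have h2 : 2 ≤ d χ := by
    have := hd0 χ
    have : d χ ≠ 1 := fun e => hne (by simp [e])
    omega
  have hlt : ∑ ψ : Cfsg.IrrCharacter A, 1 < ∑ ψ : Cfsg.IrrCharacter A, d ψ ^ 2 :=
    Finset.sum_lt_sum (fun ψ _ => Nat.one_le_pow _ _ (hd0 ψ))
      ⟨χ, Finset.mem_univ _, by nlinarith⟩
  rw [hsum, ← hcard, Nat.card_eq_fintype_card] at hlt
  simp at hlt

theorem finrank_le_index {V : Type v} [AddCommGroup V] [Module ℂ V] [FiniteDimensional ℂ V]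
    [Finite G] (ρ : Representation ℂ G V) [ρ.IsIrreducible] (A : Subgroup G)
    (hA : ∀ a ∈ A, ∀ b ∈ A, a * b = b * a) : finrank ℂ V ≤ A.index := by
  classical
  haveI := Fintype.ofFinite G
  let χ : Cfsg.IrrCharacter G := ⟨ρ.character, isIrrCharacter_of_rep ρ⟩
  let φ : A → ℂ := fun a => (χ : G → ℂ) a
  have hφ : Cfsg.IsCharacter A φ :=
    isCharacter_comp (isCharacter_of_isIrrCharacter χ.2) A.subtype
  choose n hn using fun ψ : Cfsg.IrrCharacter A => exists_nat_classInner hφ ψ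
  have hexp := classFunction_expand (isClassFunction_of_isCharacter hφ)
  have h1 : ∀ ψ : Cfsg.IrrCharacter A, (ψ : A → ℂ) 1 = 1 := fun ψ =>
    irr_apply_one_eq_one_of_comm (fun a b => Subtype.ext (hA a a.2 b b.2)) ψ
  have hdeg : φ 1 = (finrank ℂ V : ℂ) := by
    simp [φ, χ]
  have hd : (finrank ℂ V : ℂ) = ∑ ψ : Cfsg.IrrCharacter A, (n ψ : ℂ) := by
    rw [← hdeg, hexp]
    simp [Finset.sum_apply, h1, hn]
  have hsq : Cfsg.classInner φ φ = ∑ ψ : Cfsg.IrrCharacter A, (n ψ : ℂ) * (n ψ : ℂ) := by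
    conv_lhs => arg 1; rw [hexp]
    rw [classInner_sum_left]
    refine Finset.sum_congr rfl fun η _ => ?_
    rw [classInner_smul_left, ← classInner_conj_symm φ (η : A → ℂ), hn, Complex.conj_natCast]
  have hA0 : (Nat.card A : ℂ) ≠ 0 := by exact_mod_cast Nat.card_pos.ne'
  have hG0 : (Nat.card G : ℂ) ≠ 0 := by exact_mod_cast Nat.card_pos.ne'
  have hA' : (∑ a : A, ‖(χ : G → ℂ) a‖ ^ 2 : ℝ) = (Nat.card A : ℝ) * ∑ ψ, ((n ψ * n ψ : ℕ) : ℝ) := by
    simp only [Cfsg.classInner] at hsq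
    rw [inv_mul_eq_iff_eq_mul₀ hA0] at hsq
    apply Complex.ofReal_injective
    push_cast
    rw [← hsq]
    refine Finset.sum_congr rfl fun a _ => ?_
    rw [Complex.mul_conj']
  have hG : (∑ g : G, ‖(χ : G → ℂ) g‖ ^ 2 : ℝ) = Nat.card G := by
    have h := classInner_irr_self χ
    simp only [Cfsg.classInner] at h
    rw [inv_mul_eq_iff_eq_mul₀ hG0, mul_one] at h
    apply Complex.ofReal_injective
    push_cast
    rw [← h]
    refine Finset.sum_congr rfl fun a _ => ?_
    rw [Complex.mul_conj']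
  have hle : (∑ a : A, ‖(χ : G → ℂ) a‖ ^ 2 : ℝ) ≤ ∑ g : G, ‖(χ : G → ℂ) g‖ ^ 2 := by
    rw [← Finset.sum_subtype (Finset.univ.filter (· ∈ A)) (by simp) (fun g => ‖(χ : G → ℂ) g‖ ^ 2)]
    exact Finset.sum_le_sum_of_subset_of_nonneg (Finset.subset_univ _) fun g _ _ => sq_nonneg _
  rw [hA', hG] at hle
  have hnat : Nat.card A * ∑ ψ, n ψ * n ψ ≤ Nat.card A * A.index := by
    rw [Subgroup.card_mul_index]
    exact_mod_cast hle
  have hfin : finrank ℂ V = ∑ ψ : Cfsg.IrrCharacter A, n ψ := by exact_mod_cast hd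
  rw [hfin]
  exact (Finset.sum_le_sum fun ψ _ => Nat.le_mul_self _).trans
    (Nat.le_of_mul_le_mul_left hnat Nat.card_pos)

theorem sylow_vanishing [Finite G] {p : ℕ} (P : Sylow p G) (χ : G → ℂ)
    (hχ : Cfsg.IsCharacter G χ) (hvan : ∀ g : G, g ∈ P → g ≠ 1 → χ g = 0) :
    ∃ k : ℕ, χ 1 = (Nat.card P : ℂ) * k := by
  classical
  haveI := Fintype.ofFinite G
  let φ : ↥(P : Subgroup G) → ℂ := fun a => χ (a : G)
  have hφ : Cfsg.IsCharacter (P : Subgroup G) φ := isCharacter_comp hχ (P : Subgroup G).subtype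
  obtain ⟨k, hk⟩ := exists_nat_classInner hφ (oneIrr _)
  refine ⟨k, ?_⟩
  simp only [Cfsg.classInner] at hk
  rw [inv_mul_eq_iff_eq_mul₀ (by exact_mod_cast Nat.card_pos.ne')] at hk
  rw [← hk, Fintype.sum_eq_single (1 : (P : Subgroup G))]
  · simp [φ, oneIrr]
  · intro x hx
    have : χ x = 0 := hvan x x.2 fun e => hx (Subtype.ext e)
    simp [φ, this]

/-- If `g` centralizes no nontrivial element of `H` and `H` is not in the kernel, `χ g = 0`. -/
theorem char_eq_zero_of_fpf [Finite G] {V : Type v} [AddCommGroup V] [Module ℂ V]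
    [FiniteDimensional ℂ V] (ρ : Representation ℂ G V) [ρ.IsIrreducible] (H : Subgroup G)
    [H.Normal] (hker : ∃ h ∈ H, ρ h ≠ LinearMap.id) (g : G)
    (hg : ∀ h ∈ H, h * g = g * h → h = 1) : ρ.character g = 0 := by
  classical
  haveI := Fintype.ofFinite G
  let T : Module.End ℂ V := ∑ h : H, ρ h
  let e : G → H ≃ H := fun x => (MulAut.conjNormal (H := H) x).toEquiv
  have hcomm : ∀ x, T * ρ x = ρ x * T := by
    intro x
    simp only [T, Finset.sum_mul, Finset.mul_sum, ← map_mul]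
    refine (Fintype.sum_equiv (e x) _ _ fun h => ?_).symm
    simp [e, mul_assoc]
  obtain ⟨c, hc⟩ := exists_smul_id_of_commute ρ T hcomm
  obtain ⟨h₀, hh₀, hne⟩ := hker
  have hTh : T * ρ h₀ = T := by
    simp only [T, Finset.sum_mul, ← map_mul]
    exact Fintype.sum_equiv (Equiv.mulRight (⟨h₀, hh₀⟩ : H)) _ _ fun h => rfl
  have hc0 : c = 0 := by
    by_contra h0
    apply hne
    rw [hc] at hTh
    have := congrArg (fun f => c⁻¹ • f) hTh
    simpa [smul_smul, h0, smul_mul_assoc, Module.End.mul_eq_comp] using this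
  have htr : LinearMap.trace ℂ V (T * ρ g) = (Nat.card H : ℂ) * ρ.character g := by
    simp only [T, Finset.sum_mul, map_sum, ← map_mul]
    rw [Nat.card_eq_fintype_card, Fintype.card, ← nsmul_eq_mul, ← Finset.sum_const]
    have hinj : Function.Injective (fun k : H => (k : G) * g * (k : G)⁻¹ * g⁻¹) := by
      intro a b hab
      simp only [mul_left_inj] at hab
      have h1 : (b : G)⁻¹ * a * g = g * ((b : G)⁻¹ * a) := by
        calc (b : G)⁻¹ * a * g = (b : G)⁻¹ * ((a : G) * g * (a : G)⁻¹) * a := by group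
          _ = _ := by rw [hab]; group
      have := hg _ (mul_mem (inv_mem b.2) a.2) h1
      exact Subtype.ext (inv_mul_eq_one.1 this).symm
    have hmem : ∀ k : H, (k : G) * g * (k : G)⁻¹ * g⁻¹ ∈ H := fun k => by
      have h1 := (inferInstance : H.Normal).conj_mem _ (inv_mem k.2) g
      have h2 := mul_mem k.2 h1
      rwa [← mul_assoc, ← mul_assoc] at h2
    have hbij : Function.Bijective (fun k : H => (⟨_, hmem k⟩ : H)) :=
      Finite.injective_iff_bijective.1 fun a b hab => hinj (congrArg Subtype.val hab)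
    symm
    refine Fintype.sum_equiv (Equiv.ofBijective _ hbij) _ _ fun k => ?_
    show ρ.character g = ρ.character ((k : G) * g * (k : G)⁻¹ * g⁻¹ * g)
    rw [inv_mul_cancel_right, Representation.char_conj]
  rw [hc, hc0, zero_smul, zero_mul, map_zero] at htr
  rcases mul_eq_zero.1 htr.symm with h | h
  · exact absurd (by exact_mod_cast h) (Nat.card_pos (α := H)).ne'
  · exact h

theorem modEq_fixed_pairs [Finite G] (p : ℕ) [Fact p.Prime] (P : Subgroup G) (hP : IsPGroup p P)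
    (c : G) (hc : c ∈ Subgroup.centralizer (P : Set G)) (g h : G) :
    Nat.card {xy : G × G // IsConj g xy.1 ∧ IsConj h xy.2 ∧ xy.1 * xy.2 = c} ≡
      Nat.card {xy : G × G // IsConj g xy.1 ∧ IsConj h xy.2 ∧ xy.1 * xy.2 = c ∧
        xy.1 ∈ Subgroup.centralizer (P : Set G) ∧ xy.2 ∈ Subgroup.centralizer (P : Set G)}
      [MOD p] := by
  let S := {xy : G × G // IsConj g xy.1 ∧ IsConj h xy.2 ∧ xy.1 * xy.2 = c}
  letI act : MulAction P S :=
    { smul := fun a s => ⟨((a : G) * s.1.1 * (a : G)⁻¹, (a : G) * s.1.2 * (a : G)⁻¹),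
        s.2.1.trans (isConj_iff.2 ⟨a, rfl⟩), s.2.2.1.trans (isConj_iff.2 ⟨a, rfl⟩), by
          calc (a : G) * s.1.1 * (a : G)⁻¹ * ((a : G) * s.1.2 * (a : G)⁻¹)
              = (a : G) * (s.1.1 * s.1.2) * (a : G)⁻¹ := by group
            _ = c := by
              rw [s.2.2.2, Subgroup.mem_centralizer_iff.1 hc a a.2, mul_inv_cancel_right]⟩
      one_smul := fun s => by apply Subtype.ext; simp [HSMul.hSMul]
      mul_smul := fun a b s => by apply Subtype.ext; simp [HSMul.hSMul, mul_assoc] }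
  refine (hP.card_modEq_card_fixedPoints S).trans (congrArg (· % p) ?_)
  refine Nat.card_congr
    { toFun := fun s => ⟨s.1.1, s.1.2.1, s.1.2.2.1, s.1.2.2.2, ?_, ?_⟩
      invFun := fun s => ⟨⟨s.1, s.2.1, s.2.2.1, s.2.2.2.1⟩, ?_⟩
      left_inv := fun s => rfl
      right_inv := fun s => rfl }
  · rw [Subgroup.mem_centralizer_iff]
    intro a ha
    exact eq_mul_inv_iff_mul_eq.1 (congrArg (fun t : S => t.1.1) (s.2 ⟨a, ha⟩)).symm |>.symm
  · rw [Subgroup.mem_centralizer_iff]
    intro a ha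
    exact eq_mul_inv_iff_mul_eq.1 (congrArg (fun t : S => t.1.2) (s.2 ⟨a, ha⟩)).symm |>.symm
  · intro a
    apply Subtype.ext
    apply Prod.ext
    · show (a : G) * s.1.1 * (a : G)⁻¹ = s.1.1
      rw [Subgroup.mem_centralizer_iff.1 s.2.2.2.2.1 a a.2, mul_inv_cancel_right]
    · show (a : G) * s.1.2 * (a : G)⁻¹ = s.1.2
      rw [Subgroup.mem_centralizer_iff.1 s.2.2.2.2.2 a a.2, mul_inv_cancel_right]

end Cfsg.Agent.CharLead
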