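import Cfsg.Agent.Char.Brauer
import Mathlib

/-! Permutation characters on cosets of quasi-elementary subgroups for one prime; cyclic counting. -/

set_option autoImplicit false
set_option linter.style.haveILetI false
open Cfsg.Agent.Char
open Cfsg.Agent

universe u

namespace Cfsg.Agent.CharLead

variable {G : Type u} [Group G]

/-- The span of the permutation characters on cosets of `q`-quasi-elementary subgroups. -/
def pSpan (G : Type u) [Group G] (q : ℕ) : AddSubgroup (G → ℤ) :=
  AddSubgroup.closure {f | ∃ H : Subgroup G, IsQuasiElem q H ∧ f = permFix H}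

variable [Finite G]

theorem card_fix_mem_pSpan {X : Type*} [MulAction G X] [DecidableEq X]
    {q : ℕ} (hX : ∀ x : X, IsQuasiElem q (MulAction.stabilizer G x))
    (S : Finset X) (hS : ∀ g : G, ∀ x ∈ S, g • x ∈ S) :
    (fun g : G => ((S.filter fun x => g • x = x).card : ℤ)) ∈ pSpan G q := by
  classical
  induction S using Finset.strongInduction with
  | H S ih =>
    rcases S.eq_empty_or_nonempty with rfl | ⟨x, hx⟩
    · simp only [Finset.filter_empty, Finset.card_empty, Nat.cast_zero]
      exact zero_mem (pSpan G q)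
    · haveI := Fintype.ofFinite G
      set O : Finset X := Finset.univ.image fun h : G => h • x with hO
      have hOS : O ⊆ S := by
        intro y hy
        obtain ⟨h, -, rfl⟩ := Finset.mem_image.1 hy
        exact hS h x hx
      have hxO : x ∈ O := Finset.mem_image.2 ⟨1, Finset.mem_univ _, one_smul G x⟩
      have hinv : ∀ g : G, ∀ y ∈ S \ O, g • y ∈ S \ O := by
        intro g y hy
        rw [Finset.mem_sdiff] at hy ⊢
        refine ⟨hS g y hy.1, fun h => hy.2 ?_⟩
        obtain ⟨k, -, hk⟩ := Finset.mem_image.1 h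
        exact Finset.mem_image.2 ⟨g⁻¹ * k, Finset.mem_univ _, by rw [mul_smul, hk, inv_smul_smul]⟩
      have h1 := ih (S \ O) (Finset.sdiff_ssubset hOS ⟨x, hxO⟩) hinv
      have hqe := hX x
      have h2 : permFix (MulAction.stabilizer G x) ∈ pSpan G q :=
        AddSubgroup.subset_closure ⟨_, hqe, rfl⟩
      convert add_mem h1 h2 using 1
      funext g
      have hsplit : S.filter (fun y => g • y = y)
          = ((S \ O).filter fun y => g • y = y) ∪ (O.filter fun y => g • y = y) := by
        rw [← Finset.filter_union, Finset.sdiff_union_of_subset hOS]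
      have hO' : ((O.filter fun y => g • y = y).card : ℤ) = permFix (MulAction.stabilizer G x) g := by
        unfold permFix
        norm_cast
        rw [← Nat.card_eq_finsetCard]
        symm
        refine Nat.card_congr (Equiv.ofBijective
          (fun z : {z : G ⧸ MulAction.stabilizer G x // g • z = z} =>
            (⟨MulAction.ofQuotientStabilizer G x z.1, ?_⟩ :
              ↥(O.filter fun y => g • y = y))) ⟨?_, ?_⟩)
        · refine Finset.mem_filter.2 ⟨?_, ?_⟩
          · obtain ⟨h, hh⟩ := Quotient.exists_rep z.1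
            rw [← hh]
            exact Finset.mem_image.2 ⟨h, Finset.mem_univ _, rfl⟩
          · rw [← MulAction.ofQuotientStabilizer_smul, z.2]
        · intro a b hab
          exact Subtype.ext (MulAction.injective_ofQuotientStabilizer G x (congrArg Subtype.val hab :))
        · rintro ⟨y, hy⟩
          obtain ⟨hy1, hy2⟩ := Finset.mem_filter.1 hy
          obtain ⟨h, -, rfl⟩ := Finset.mem_image.1 hy1
          exact ⟨⟨QuotientGroup.mk h, MulAction.injective_ofQuotientStabilizer G x
            (by rw [MulAction.ofQuotientStabilizer_smul]; exact hy2)⟩, rfl⟩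
      have hdisj : Disjoint ((S \ O).filter fun y => g • y = y) (O.filter fun y => g • y = y) :=
        Finset.disjoint_filter_filter Finset.sdiff_disjoint
      show ((S.filter fun y => g • y = y).card : ℤ) = _
      rw [hsplit, Finset.card_union_of_disjoint hdisj, Pi.add_apply, Nat.cast_add, hO']

theorem pSpan_gen_mul (H K : Subgroup G) {q : ℕ} (hq : q.Prime) (hH : IsQuasiElem q H) :
    permFix H * permFix K ∈ pSpan G q := by
  classical
  haveI := Fintype.ofFinite (G ⧸ H)
  haveI := Fintype.ofFinite (G ⧸ K)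
  have h := card_fix_mem_pSpan (G := G) (X := (G ⧸ H) × (G ⧸ K)) (q := q) ?_ Finset.univ
    (fun g x _ => Finset.mem_univ _)
  · convert h using 1
    funext g
    unfold permFix
    simp only [Pi.mul_apply]
    rw [← Nat.cast_mul, ← Nat.card_prod, ← Fintype.card_subtype, ← Nat.card_eq_fintype_card]
    congr 1
    refine Nat.card_congr ⟨fun z => ⟨(z.1.1, z.2.1), Prod.ext z.1.2 z.2.2⟩,
      fun z => (⟨z.1.1, congrArg Prod.fst z.2⟩, ⟨z.1.2, congrArg Prod.snd z.2⟩),
      fun _ => rfl, fun _ => rfl⟩
  · rintro ⟨a, b⟩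
    obtain ⟨g, rfl⟩ := QuotientGroup.mk_surjective a
    have hle : MulAction.stabilizer G ((QuotientGroup.mk g : G ⧸ H), b)
        ≤ MulAction.stabilizer G (QuotientGroup.mk g : G ⧸ H) := fun z hz =>
      congrArg Prod.fst (MulAction.mem_stabilizer_iff.1 hz)
    have hst : IsQuasiElem q (MulAction.stabilizer G (QuotientGroup.mk g : G ⧸ H)) := by
      have : MulAction.stabilizer G (QuotientGroup.mk g : G ⧸ H)
          = H.map (MulAut.conj g).toMonoidHom := by
        have h1 := MulAction.stabilizer_smul_eq_stabilizer_map_conj g (QuotientGroup.mk 1 : G ⧸ H)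
        rw [MulAction.stabilizer_quotient] at h1
        rw [← h1]
        congr 1
        show _ = QuotientGroup.mk (g * 1)
        rw [mul_one]
      rw [this]
      exact isQuasiElem_of_equiv
        (H.equivMapOfInjective (MulAut.conj g).toMonoidHom (MulAut.conj g).injective) hH
    exact isQuasiElem_of_equiv (Subgroup.subgroupOfEquivOfLe hle)
      (isQuasiElem_subgroup hq hst _)

theorem pSpan_mul {q : ℕ} (hq : q.Prime) {f f' : G → ℤ} (hf : f ∈ pSpan G q) (hf' : f' ∈ pSpan G q) :
    f * f' ∈ pSpan G q := by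
  induction hf using AddSubgroup.closure_induction with
  | mem f hf =>
    obtain ⟨H, hH, rfl⟩ := hf
    induction hf' using AddSubgroup.closure_induction with
    | mem f' hf' =>
      obtain ⟨K, -, rfl⟩ := hf'
      exact pSpan_gen_mul H K hq hH
    | zero => rw [mul_zero]; exact zero_mem _
    | add a b _ _ ha hb => rw [mul_add]; exact add_mem ha hb
    | neg a _ ha => rw [mul_neg]; exact neg_mem ha
  | zero => rw [zero_mul]; exact zero_mem _
  | add a b _ _ ha hb => rw [add_mul]; exact add_mem ha hb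
  | neg a _ ha => rw [neg_mul]; exact neg_mem ha

theorem exists_quasi_not_dvd {q : ℕ} (hq : q.Prime) (g : G) :
    ∃ H : Subgroup G, IsQuasiElem q H ∧ ¬ (q : ℤ) ∣ permFix H g := by
  classical
  haveI : Fact q.Prime := ⟨hq⟩
  obtain ⟨u, v, huv, hcomm, ⟨i, hu⟩, hv, -, hvg⟩ := Blocks.exists_pPart hq g
  set C : Subgroup G := Subgroup.zpowers v with hC
  set N : Subgroup G := Subgroup.normalizer (C : Set G) with hN
  have hCN : C ≤ N := Subgroup.le_normalizer
  have huN : u ∈ N := by
    refine Subgroup.mem_normalizer_iff.2 fun y => ?_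
    rw [hC, Subgroup.mem_zpowers_iff, Subgroup.mem_zpowers_iff]
    have hcj : ∀ m : ℤ, u * v ^ m * u⁻¹ = v ^ m := fun m => by
      rw [(hcomm.zpow_right m).eq, mul_inv_cancel_right]
    constructor
    · rintro ⟨m, rfl⟩; exact ⟨m, (hcj m).symm⟩
    · rintro ⟨m, hm⟩
      refine ⟨m, ?_⟩
      have := hcj m
      rw [← mul_right_cancel_iff (a := u⁻¹), ← mul_left_cancel_iff (a := u), ← mul_assoc, this, hm,
        mul_assoc]
  set C' : Subgroup N := C.subgroupOf N with hC'
  haveI : C'.Normal := Subgroup.normal_in_normalizer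
  obtain ⟨S, hS⟩ := ((Blocks.isPGroup_zpowers (p := q)
    (show orderOf (⟨u, huN⟩ : N) = q ^ i by rw [Subgroup.orderOf_mk]; exact hu)).map
      (QuotientGroup.mk' C')).exists_le_sylow
  set H0 : Subgroup N := (S : Subgroup (N ⧸ C')).comap (QuotientGroup.mk' C') with hH0
  set H : Subgroup G := H0.map N.subtype with hH
  have hC'H0 : C' ≤ H0 := by
    intro c hc
    show QuotientGroup.mk' C' c ∈ (S : Subgroup (N ⧸ C'))
    have : QuotientGroup.mk' C' c = 1 := (QuotientGroup.eq_one_iff c).2 hc
    rw [this]; exact one_mem _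
  -- elements of `H` of order prime to `q` lie in `C`
  have hqC : ∀ y : G, y ∈ H → ¬ q ∣ orderOf y → y ∈ C := by
    intro y hy hqy
    obtain ⟨z, hz, rfl⟩ := hy
    obtain ⟨j, hj⟩ := (S.2 ⟨QuotientGroup.mk' C' z, hz⟩)
    have h1 : orderOf (QuotientGroup.mk' C' z) ∣ q ^ j :=
      orderOf_dvd_of_pow_eq_one (congrArg Subtype.val hj)
    have h2 : orderOf (QuotientGroup.mk' C' z) ∣ orderOf (z : G) := by
      rw [Subgroup.orderOf_coe]; exact orderOf_map_dvd _ z
    have h3 : QuotientGroup.mk' C' z = 1 := orderOf_eq_one_iff.1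
      (Nat.eq_one_of_dvd_coprimes ((hq.coprime_iff_not_dvd.2 hqy).pow_left j) h1 h2)
    exact (QuotientGroup.eq_one_iff z).1 h3
  have hqe : IsQuasiElem q H := by
    refine isQuasiElem_of_equiv (H0.equivMapOfInjective N.subtype N.subtype_injective)
      ⟨C'.subgroupOf H0, inferInstance, ?_, ?_, ?_⟩
    · let f : C'.subgroupOf H0 →* C :=
        { toFun := fun x => ⟨(((x : H0) : N) : G), x.2⟩
          map_one' := rfl
          map_mul' := fun _ _ => rfl }
      refine isCyclic_of_injective f fun a b hab => ?_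
      exact Subtype.ext (Subtype.ext (Subtype.ext (congrArg Subtype.val hab :)))
    · rw [Nat.card_congr (Subgroup.subgroupOfEquivOfLe hC'H0).toEquiv,
        Nat.card_congr (Subgroup.subgroupOfEquivOfLe hCN).toEquiv, Nat.card_zpowers]
      exact Nat.coprime_comm.1 (hq.coprime_iff_not_dvd.2 hv)
    · refine ⟨(Nat.card (N ⧸ C')).factorization q, ?_⟩
      rw [← S.card_eq_multiplicity]
      have := Subgroup.relIndex_comap (⊥ : Subgroup (N ⧸ C')) (QuotientGroup.mk' C') H0
      rw [MonoidHom.comap_bot, QuotientGroup.ker_mk',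
        Subgroup.map_comap_eq_self_of_surjective (QuotientGroup.mk'_surjective C'),
        Subgroup.relIndex_bot_left] at this
      exact this
  refine ⟨H, hqe, ?_⟩
  unfold permFix
  rw [Int.natCast_dvd_natCast]
  -- the fixed points of `v`
  have hvmem : v ∈ H := ⟨⟨v, hCN (Subgroup.mem_zpowers v)⟩,
    hC'H0 (Subgroup.mem_subgroupOf.2 (Subgroup.mem_zpowers v)), rfl⟩
  let X := {x : G ⧸ H // v • x = x}
  letI : MulAction (Subgroup.zpowers u) X :=
    { smul := fun w x => ⟨(w : G) • x.1, by
        obtain ⟨m, hm⟩ := w.2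
        have hc : v * (w : G) = (w : G) * v := by
          rw [← show u ^ m = (w : G) from hm]; exact (hcomm.symm.zpow_right m).eq
        rw [← mul_smul, hc, mul_smul, x.2]⟩
      one_smul := fun x => Subtype.ext (one_smul G x.1)
      mul_smul := fun a b x => Subtype.ext (mul_smul (a : G) (b : G) x.1) }
  have hXmem : ∀ y : G, v • (QuotientGroup.mk y : G ⧸ H) = QuotientGroup.mk y ↔ y ∈ N := by
    intro y
    constructor
    · intro h
      have h1 : (v * y)⁻¹ * y ∈ H := QuotientGroup.eq.1 h
      have h2 : y⁻¹ * v * y ∈ H := by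
        have := H.inv_mem h1
        simpa [mul_assoc] using this
      have hord : orderOf (y⁻¹ * v * y) = orderOf v := by
        have := MulEquiv.orderOf_eq (MulAut.conj y⁻¹) v
        simpa [mul_assoc] using this
      have h3 : y⁻¹ * v * y ∈ C := hqC _ h2 (by rw [hord]; exact hv)
      have heq : C.map (MulAut.conj y⁻¹).toMonoidHom = C := by
        refine Subgroup.eq_of_le_of_card_ge ?_ ?_
        · rw [hC, MonoidHom.map_zpowers, Subgroup.zpowers_le]
          simpa [mul_assoc] using h3
        · exact (Nat.card_congr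
            (C.equivMapOfInjective _ (MulAut.conj y⁻¹).injective).toEquiv).le
      refine (Subgroup.inv_mem_iff N).1 (Subgroup.mem_normalizer_iff.2 fun z => ?_)
      constructor
      · intro hz
        exact heq ▸ ⟨z, hz, by simp⟩
      · intro hz
        rw [← heq] at hz
        obtain ⟨w, hw, hwz⟩ := hz
        have : w = z := by simpa using hwz
        exact this ▸ hw
    · intro hy
      refine QuotientGroup.eq.2 ?_
      have h1 : y⁻¹ * v⁻¹ * y ∈ C := by
        have := (Subgroup.mem_normalizer_iff.1 (N.inv_mem hy) v⁻¹).1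
          (C.inv_mem (Subgroup.mem_zpowers v))
        simpa using this
      have h2 : y⁻¹ * v⁻¹ * y ∈ H := ⟨⟨_, hCN h1⟩, hC'H0 (Subgroup.mem_subgroupOf.2 h1), rfl⟩
      simpa [mul_assoc] using h2
  have hcard : Nat.card X = (S : Subgroup (N ⧸ C')).index := by
    rw [← Subgroup.index_comap_of_surjective (S : Subgroup (N ⧸ C'))
      (QuotientGroup.mk'_surjective C'), ← hH0, Subgroup.index_eq_card]
    symm
    let f : N ⧸ H0 → X := fun z => Quotient.liftOn' z
      (fun y => ⟨QuotientGroup.mk (y : G), (hXmem _).2 y.2⟩)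
      (fun a b hab => Subtype.ext (QuotientGroup.eq.2
        ⟨a⁻¹ * b, QuotientGroup.leftRel_apply.1 hab, by simp⟩))
    refine Nat.card_congr (Equiv.ofBijective f ⟨?_, ?_⟩)
    · intro a b
      refine Quotient.inductionOn₂' a b fun a b hab => Quotient.sound' ?_
      refine QuotientGroup.leftRel_apply.2 ?_
      obtain ⟨z, hz, hz'⟩ := QuotientGroup.eq.1 (congrArg Subtype.val hab :)
      have : z = a⁻¹ * b := Subtype.ext (by simpa using hz')
      exact this ▸ hz
    · rintro ⟨x, hx⟩
      obtain ⟨y, rfl⟩ := QuotientGroup.mk_surjective x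
      exact ⟨QuotientGroup.mk (⟨y, (hXmem y).1 hx⟩ : N), rfl⟩
  have hmod := (Blocks.isPGroup_zpowers hu).card_modEq_card_fixedPoints X
  have hfix : Nat.card (MulAction.fixedPoints (Subgroup.zpowers u) X)
      = Nat.card {x : G ⧸ H // g • x = x} := by
    refine Nat.card_congr ⟨fun z => ⟨z.1.1, ?_⟩, fun z => ⟨⟨z.1, ?_⟩, fun w => Subtype.ext ?_⟩,
      fun _ => rfl, fun _ => rfl⟩
    · rw [← huv, mul_smul, z.1.2]
      exact congrArg Subtype.val (z.2 ⟨u, Subgroup.mem_zpowers u⟩)
    · obtain ⟨m, hm⟩ := hvg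
      rw [← hm]
      exact MulAction.mem_stabilizer_iff.1 (Subgroup.zpow_mem _ (MulAction.mem_stabilizer_iff.2 z.2) m)
    · show (w : G) • z.1 = z.1
      have hug : u ∈ Subgroup.zpowers g := by
        have : u = g * v⁻¹ := by rw [← huv, mul_inv_cancel_right]
        rw [this]
        exact mul_mem (Subgroup.mem_zpowers g) (inv_mem hvg)
      exact MulAction.mem_stabilizer_iff.1
        ((Subgroup.zpowers_le.2 (MulAction.mem_stabilizer_iff.2 z.2))
          ((Subgroup.zpowers_le.2 hug) w.2))
  rw [← hfix]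
  intro hdvd
  apply S.not_dvd_index
  rw [← hcard]
  exact (Nat.modEq_zero_iff_dvd.1 (hmod.trans (Nat.modEq_zero_iff_dvd.2 hdvd)))

theorem isQuasiElem_of_isCyclic {q : ℕ} (hq : q.Prime) (C : Subgroup G) (hC : IsCyclic C) :
    IsQuasiElem q C := by
  haveI := hC
  letI : CommGroup C := IsCyclic.commGroup
  obtain ⟨c, hc⟩ := IsCyclic.exists_generator (α := C)
  refine ⟨Subgroup.zpowers (c ^ q ^ (Nat.card C).factorization q), inferInstance, inferInstance, ?_, ?_⟩
  · rw [Nat.card_zpowers, orderOf_pow, orderOf_eq_card_of_forall_mem_zpowers hc,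
      Nat.gcd_eq_right (Nat.ordProj_dvd _ _)]
    exact Nat.coprime_comm.1 (hq.coprime_iff_not_dvd.2 (Nat.not_dvd_ordCompl hq Nat.card_pos.ne'))
  · refine ⟨(Nat.card C).factorization q, ?_⟩
    have h := (Subgroup.zpowers (c ^ q ^ (Nat.card C).factorization q)).card_mul_index
    rw [Nat.card_zpowers, orderOf_pow, orderOf_eq_card_of_forall_mem_zpowers hc,
      Nat.gcd_eq_right (Nat.ordProj_dvd _ _)] at h
    refine Nat.eq_of_mul_eq_mul_left (Nat.div_pos (Nat.ordProj_le _ (Nat.card_pos (α := C)).ne') (pow_pos hq.pos _)) ?_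
    rw [h, Nat.div_mul_cancel (Nat.ordProj_dvd _ _)]

/-- The number of `x` for which `x⁻¹ g x` generates `D`. -/
noncomputable def genCount (D : Subgroup G) : G → ℤ :=
  fun g => (Nat.card {x : G // Subgroup.zpowers (x⁻¹ * g * x) = D} : ℤ)

theorem card_mul_permFix (C : Subgroup G) (g : G) :
    (Nat.card {x : G // x⁻¹ * g * x ∈ C} : ℤ) = (Nat.card C : ℤ) * permFix C g := by
  unfold permFix
  rw [← Nat.cast_mul, ← Nat.card_prod]
  congr 1
  refine Nat.card_congr ?_
  have hiff : ∀ x : G, g • (QuotientGroup.mk x : G ⧸ C) = QuotientGroup.mk x ↔ x⁻¹ * g * x ∈ C := by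
    intro x
    show QuotientGroup.mk (g * x) = _ ↔ _
    rw [eq_comm, QuotientGroup.eq, mul_assoc]
  exact (Equiv.subtypeEquivRight fun x => (hiff x).symm).trans
    (QuotientGroup.preimageMkEquivSubgroupProdSet C {x : G ⧸ C | g • x = x})

theorem genCount_eq_zero {D : Subgroup G} (hD : ¬ IsCyclic D) (g : G) : genCount D g = 0 := by
  unfold genCount
  haveI : IsEmpty {x : G // Subgroup.zpowers (x⁻¹ * g * x) = D} :=
    ⟨fun x => hD (x.2 ▸ inferInstance)⟩
  rw [Nat.card_of_isEmpty, Nat.cast_zero]

theorem genCount_mem {M : AddSubgroup (G → ℤ)} (hM : ∀ C : Subgroup G, IsCyclic C → permFix C ∈ M)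
    (D : Subgroup G) : genCount D ∈ M := by
  classical
  haveI := Fintype.ofFinite G
  haveI := Fintype.ofFinite (Subgroup G)
  induction hc : Nat.card D using Nat.strong_induction_on generalizing D with
  | _ n ih =>
  by_cases hD : IsCyclic D
  swap
  · rw [show genCount D = 0 from funext fun g => genCount_eq_zero hD g]
    exact zero_mem M
  set S := Finset.univ.filter (fun E : Subgroup G => E ≤ D)
  have hsum : ∑ E ∈ S, genCount E = (Nat.card D : ℕ) • permFix D := by
    funext g
    rw [Finset.sum_apply, Pi.smul_apply, nsmul_eq_mul, ← card_mul_permFix]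
    simp only [genCount, Nat.card_eq_fintype_card, Fintype.card_subtype]
    rw [← Nat.cast_sum]
    congr 1
    rw [Finset.card_eq_sum_card_fiberwise (t := S) (f := fun x => Subgroup.zpowers (x⁻¹ * g * x))
      (s := Finset.univ.filter fun x : G => x⁻¹ * g * x ∈ D) fun x hx => by
        simp only [S, Finset.coe_filter, Finset.mem_univ, true_and, Set.mem_setOf_eq] at hx ⊢
        exact Subgroup.zpowers_le.2 hx]
    refine Finset.sum_congr rfl fun E hE => ?_
    congr 1
    ext x
    simp only [Finset.mem_filter, Finset.mem_univ, true_and]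
    exact ⟨fun h => ⟨(Finset.mem_filter.1 hE).2 (h ▸ Subgroup.mem_zpowers _), h⟩, fun h => h.2⟩
  have hDS : D ∈ S := Finset.mem_filter.2 ⟨Finset.mem_univ _, le_rfl⟩
  rw [← Finset.add_sum_erase _ _ hDS] at hsum
  rw [eq_sub_of_add_eq hsum]
  refine sub_mem (AddSubgroup.nsmul_mem _ (hM D hD) _) (sum_mem fun E hE => ?_)
  obtain ⟨hne, hES⟩ := Finset.mem_erase.1 hE
  have hle := (Finset.mem_filter.1 hES).2
  exact ih _ (hc ▸ lt_of_le_of_ne (Nat.le_of_dvd Nat.card_pos (Subgroup.card_dvd_of_le hle))
    (fun e => hne (Subgroup.eq_of_le_of_card_ge hle e.ge))) E rfl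

theorem sum_mul_genCount [Fintype (Subgroup G)] (c : Subgroup G → ℤ) (g : G) :
    ∀ [Fintype G], ∑ D, c D * genCount D g = ∑ x : G, c (Subgroup.zpowers (x⁻¹ * g * x)) := by
  classical
  intro _
  simp only [genCount, Nat.card_eq_fintype_card, Fintype.card_subtype]
  rw [← Finset.sum_fiberwise Finset.univ (fun x : G => Subgroup.zpowers (x⁻¹ * g * x))]
  refine Finset.sum_congr rfl fun D _ => ?_
  rw [Finset.sum_congr rfl (fun x hx => by rw [(Finset.mem_filter.1 hx).2] :
    ∀ x ∈ Finset.univ.filter (fun x : G => Subgroup.zpowers (x⁻¹ * g * x) = D),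
      c (Subgroup.zpowers (x⁻¹ * g * x)) = c D), Finset.sum_const, nsmul_eq_mul, mul_comm]

theorem permFix_congr_zpowers (H : Subgroup G) {g g' : G} (h : Subgroup.zpowers g = Subgroup.zpowers g') :
    permFix H g = permFix H g' := by
  unfold permFix
  congr 1
  refine Nat.card_congr (Equiv.subtypeEquivRight fun x => ?_)
  have key : ∀ a b : G, b ∈ Subgroup.zpowers a → a • x = x → b • x = x := fun a b hb ha => by
    exact MulAction.mem_stabilizer_iff.1 ((Subgroup.zpowers_le.2 (MulAction.mem_stabilizer_iff.2 ha)) hb)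
  exact ⟨key g g' (h ▸ Subgroup.mem_zpowers g'), key g' g (h.symm ▸ Subgroup.mem_zpowers g)⟩

theorem permFix_conj (H : Subgroup G) (g x : G) : permFix H (x⁻¹ * g * x) = permFix H g := by
  unfold permFix
  congr 1
  refine Nat.card_congr ⟨fun z => ⟨x • z.1, ?_⟩, fun z => ⟨x⁻¹ • z.1, ?_⟩, fun z => ?_, fun z => ?_⟩
  · have h := congrArg (fun w => x • w) z.2
    simpa [mul_smul, smul_inv_smul] using h
  · rw [← mul_smul, mul_inv_cancel_right, mul_smul, z.2]
  · exact Subtype.ext (inv_smul_smul x z.1)
  · exact Subtype.ext (smul_inv_smul x z.1)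

theorem pSpan_invariant {q : ℕ} {f : G → ℤ} (hf : f ∈ pSpan G q) :
    (∀ g g' : G, Subgroup.zpowers g = Subgroup.zpowers g' → f g = f g') ∧ ∀ g x : G, f (x⁻¹ * g * x) = f g := by
  induction hf using AddSubgroup.closure_induction with
  | mem f hf =>
    obtain ⟨H, -, rfl⟩ := hf
    exact ⟨fun g g' h => permFix_congr_zpowers H h, permFix_conj H⟩
  | zero => exact ⟨fun _ _ _ => rfl, fun _ _ => rfl⟩
  | add a b _ _ ha hb =>
    exact ⟨fun g g' h => by simp only [Pi.add_apply, ha.1 g g' h, hb.1 g g' h],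
      fun g x => by simp only [Pi.add_apply, ha.2 g x, hb.2 g x]⟩
  | neg a _ ha =>
    exact ⟨fun g g' h => by simp only [Pi.neg_apply, ha.1 g g' h], fun g x => by simp only [Pi.neg_apply, ha.2 g x]⟩

/-- Solomon's local form: an integer prime to `q` lies in the span. -/
theorem exists_const_mem_pSpan {q : ℕ} (hq : q.Prime) :
    ∃ m : ℤ, ¬ (q : ℤ) ∣ m ∧ (fun _ : G => m) ∈ pSpan G q := by
  classical
  haveI := Fintype.ofFinite G
  haveI := Fintype.ofFinite (Subgroup G)
  haveI : Fact q.Prime := ⟨hq⟩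
  have key : ∀ s : Finset G, ∃ f ∈ pSpan G q, (∀ g, (f g : ZMod q) = 0 ∨ (f g : ZMod q) = 1) ∧
      ∀ g ∈ s, (f g : ZMod q) = 1 := by
    intro s
    induction s using Finset.induction_on with
    | empty => exact ⟨0, zero_mem _, fun g => Or.inl (by simp), by simp⟩
    | @insert a s _ ih =>
      obtain ⟨f, hf, hf01, hfs⟩ := ih
      obtain ⟨H, hH, hHa⟩ := exists_quasi_not_dvd hq a
      set e0 : G → ℤ := permFix H with he0
      have he : ∀ k : ℕ, e0 ^ (k + 1) ∈ pSpan G q := by
        intro k
        induction k with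
        | zero => rw [zero_add, pow_one]; exact AddSubgroup.subset_closure ⟨H, hH, rfl⟩
        | succ k ih => rw [pow_succ]; exact pSpan_mul hq ih (AddSubgroup.subset_closure ⟨H, hH, rfl⟩)
      set e : G → ℤ := e0 ^ (q - 1) with hedef
      have hem : e ∈ pSpan G q := by
        have := he (q - 2)
        rwa [show q - 2 + 1 = q - 1 by have := hq.two_le; omega] at this
      have he01 : ∀ g, (e g : ZMod q) = 0 ∨ (e g : ZMod q) = 1 := by
        intro g
        rw [hedef, Pi.pow_apply, Int.cast_pow]
        by_cases h0 : (e0 g : ZMod q) = 0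
        · left; rw [h0, zero_pow]; have := hq.two_le; omega
        · right; exact ZMod.pow_card_sub_one_eq_one h0
      have hea : (e a : ZMod q) = 1 := by
        rw [hedef, Pi.pow_apply, Int.cast_pow]
        exact ZMod.pow_card_sub_one_eq_one fun h => hHa ((ZMod.intCast_zmod_eq_zero_iff_dvd _ _).1 h)
      refine ⟨f + e - f * e, sub_mem (add_mem hf hem) (pSpan_mul hq hf hem), fun g => ?_, fun g hg => ?_⟩
      · simp only [Pi.sub_apply, Pi.add_apply, Pi.mul_apply, Int.cast_sub, Int.cast_add, Int.cast_mul]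
        rcases hf01 g with h | h <;> rcases he01 g with h' | h' <;> rw [h, h'] <;> norm_num
      · simp only [Pi.sub_apply, Pi.add_apply, Pi.mul_apply, Int.cast_sub, Int.cast_add, Int.cast_mul]
        rcases Finset.mem_insert.1 hg with rfl | hg
        · rw [hea]; ring
        · rw [hfs g hg]; ring
  obtain ⟨f, hf, -, hf1⟩ := key Finset.univ
  set a := (Nat.card G).factorization q
  have hpow : ∀ g : G, ((q ^ (a + 1) : ℕ) : ℤ) ∣ f g ^ q ^ a - 1 := by
    intro g
    have h := hf1 g (Finset.mem_univ g)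
    have hd : (q : ℤ) ∣ f g - 1 := by
      rw [← ZMod.intCast_zmod_eq_zero_iff_dvd, Int.cast_sub, h, Int.cast_one, sub_self]
    have := dvd_sub_pow_of_dvd_sub (R := ℤ) (p := q) hd a
    rw [one_pow] at this
    exact_mod_cast this
  set F : G → ℤ := f ^ q ^ a with hF
  have hFm : F ∈ pSpan G q := by
    have hall : ∀ k : ℕ, f ^ (k + 1) ∈ pSpan G q := by
      intro k
      induction k with
      | zero => rwa [zero_add, pow_one]
      | succ k ih => rw [pow_succ]; exact pSpan_mul hq ih hf
    have := hall (q ^ a - 1)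
    rwa [Nat.sub_add_cancel (Nat.one_le_pow _ _ hq.pos)] at this
  have hdiv : ∀ g : G, ((q ^ a : ℕ) : ℤ) ∣ F g - 1 := fun g =>
    (Int.natCast_dvd_natCast.2 (pow_dvd_pow q (Nat.le_succ a))).trans (hpow g)
  choose h hh using hdiv
  obtain ⟨hzp, hconj⟩ := pSpan_invariant hFm
  have hqa : ((q ^ a : ℕ) : ℤ) ≠ 0 := by exact_mod_cast (pow_pos hq.pos a).ne'
  have hinv : ∀ g x : G, h (x⁻¹ * g * x) = h g := fun g x => mul_left_cancel₀ hqa
    (by rw [← hh, ← hh, hconj g x])
  let c : Subgroup G → ℤ := fun D => if hD : ∃ y : G, Subgroup.zpowers y = D then h hD.choose else 0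
  have hc : ∀ g : G, c (Subgroup.zpowers g) = h g := by
    intro g
    have hD : ∃ y : G, Subgroup.zpowers y = Subgroup.zpowers g := ⟨g, rfl⟩
    rw [show c (Subgroup.zpowers g) = h hD.choose from dif_pos hD]
    exact mul_left_cancel₀ hqa (by rw [← hh, ← hh, hzp _ _ hD.choose_spec])
  obtain ⟨m, hm⟩ : q ^ a ∣ Nat.card G := Nat.ordProj_dvd _ _
  refine ⟨(m : ℤ), ?_, ?_⟩
  · rw [Int.natCast_dvd_natCast]
    intro hd
    refine Nat.not_dvd_ordCompl hq (Nat.card_pos (α := G)).ne' ?_
    rwa [show Nat.card G / q ^ (Nat.card G).factorization q = m from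
      Nat.div_eq_of_eq_mul_right (pow_pos hq.pos _) hm]
  · have heq : (fun _ : G => (m : ℤ)) = (m : ℕ) • F - ∑ D : Subgroup G, c D • genCount D := by
      funext g
      simp only [Pi.sub_apply, Pi.smul_apply, Finset.sum_apply, smul_eq_mul, nsmul_eq_mul, Pi.mul_apply, Pi.natCast_apply]
      rw [sum_mul_genCount c g]
      simp only [hc, hinv g, Finset.sum_const, Finset.card_univ, nsmul_eq_mul, ← Nat.card_eq_fintype_card]
      rw [hm]
      have h1 := hh g
      push_cast at h1 ⊢
      first | linear_combination (m : ℤ) * h1 | linear_combination -(m : ℤ) * h1 | linear_combination h1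
    rw [heq]
    refine sub_mem (AddSubgroup.nsmul_mem _ hFm _) (sum_mem fun D _ => AddSubgroup.zsmul_mem _ ?_ _)
    exact genCount_mem (M := pSpan G q) (fun C hC => AddSubgroup.subset_closure ⟨C, isQuasiElem_of_isCyclic hq C hC, rfl⟩) D

end Cfsg.Agent.CharLead
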