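import Cfsg.Agent.Char.Brauer
import Cfsg.Agent.CharLead.QuasiElem
import Mathlib

/-! Brauer's local induction: the principal character times a number prime to `p`. -/

set_option autoImplicit false
set_option linter.all false

namespace Cfsg.Agent.CharLead

open Cfsg.Agent.Char Cfsg.Agent

universe u

variable {G : Type u} [Group G]

section Fin

variable [Fintype G]

/-- The span of the characters induced from `p`-elementary subgroups. -/
def pElemSpan (p : ℕ) (G : Type u) [Group G] [Fintype G] : AddSubgroup (G → ℂ) :=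
  AddSubgroup.closure {f | ∃ (E : Subgroup G) (φ : E → ℂ),
    Cfsg.IsElementary p E ∧ Cfsg.IsCharacter E φ ∧ f = Cfsg.indFun E φ}

variable {p : ℕ}

theorem pElemSpan_basic {E : Subgroup G} {φ : E → ℂ}
    (hE : Cfsg.IsElementary p E) (hφ : Cfsg.IsCharacter E φ) : Cfsg.indFun E φ ∈ pElemSpan p G :=
  AddSubgroup.subset_closure ⟨E, φ, hE, hφ, rfl⟩

theorem pElemSpan_mul {θ : G → ℂ} (hθ : Cfsg.IsCharacter G θ) {f : G → ℂ} (hf : f ∈ pElemSpan p G) :
    θ * f ∈ pElemSpan p G := by
  induction hf using AddSubgroup.closure_induction with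
  | mem f hf =>
    obtain ⟨E, φ, hE, hφ, rfl⟩ := hf
    rw [mul_indFun (isClassFunction_of_isCharacter hθ)]
    exact pElemSpan_basic hE (isCharacter_mul (isCharacter_comp hθ E.subtype) hφ)
  | zero => rw [mul_zero]; exact zero_mem _
  | add a b _ _ ha hb => rw [mul_add]; exact add_mem ha hb
  | neg a _ ha => rw [mul_neg]; exact neg_mem ha

theorem pElemSpan_ind (H : Subgroup G) [Fintype H] {f : H → ℂ} (hf : f ∈ pElemSpan p H) :
    Cfsg.indFun H f ∈ pElemSpan p G := by
  induction hf using AddSubgroup.closure_induction with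
  | mem f hf =>
    obtain ⟨E', φ, hE, hφ, rfl⟩ := hf
    set e := E'.equivMapOfInjective H.subtype H.subtype_injective
    let θ : E'.map H.subtype → ℂ := fun x => φ (e.symm x)
    have h := indFun_trans (E'.map H.subtype) H (Subgroup.map_subtype_le E') θ
    have h2 : Cfsg.indFun ((E'.map H.subtype).subgroupOf H)
        (fun x => θ ⟨(x : H), Subgroup.mem_subgroupOf.mp x.2⟩) = Cfsg.indFun E' φ := by
      refine indFun_congr (Subgroup.comap_map_eq_self_of_injective H.subtype_injective E')
        fun x hA hB => ?_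
      show φ (e.symm _) = _
      congr 1
      exact e.symm_apply_eq.2 (Subtype.ext rfl)
    rw [h2] at h
    rw [h]
    exact pElemSpan_basic (isElementary_of_equiv e hE) (isCharacter_comp hφ e.symm.toMonoidHom)
  | zero =>
    have := indFun_sub H 0 0
    simp only [sub_self] at this
    rw [this]; exact zero_mem _
  | add a b _ _ ha hb => rw [indFun_add]; exact add_mem ha hb
  | neg a _ ha =>
    have : -a = (-1 : ℂ) • a := by simp
    rw [this, indFun_smul, neg_one_smul]; exact neg_mem ha

end Fin

theorem one_mem_pElemSpan_aux (n : ℕ) : ∀ (H : Type u) [Group H] [Fintype H], Nat.card H = n →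
    ∀ p : ℕ, p.Prime → IsQuasiElem p H → (fun _ : H => (1 : ℂ)) ∈ pElemSpan p H := by
  induction n using Nat.strong_induction_on with
  | _ n ih =>
  intro H _ _ hn p hp hqe
  classical
  haveI : Fact p.Prime := ⟨hp⟩
  obtain ⟨C, hCn, hCcyc, hCcop, k, hk⟩ := hqe
  haveI := hCn; haveI := hCcyc
  letI : CommGroup C := IsCyclic.commGroup
  obtain ⟨P⟩ : Nonempty (Sylow p H) := inferInstance
  have hCP : Nat.Coprime (Nat.card C) (Nat.card P) := by
    rw [P.card_eq_multiplicity]; exact hCcop.pow_right _
  have htop : C ⊔ (P : Subgroup H) = ⊤ := by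
    rw [← Subgroup.index_eq_one]
    have h1 : (C ⊔ (P : Subgroup H)).index ∣ p ^ k := hk ▸ Subgroup.index_dvd_of_le le_sup_left
    have h2 : (C ⊔ (P : Subgroup H)).index ∣ (P : Subgroup H).index :=
      Subgroup.index_dvd_of_le le_sup_right
    exact Nat.eq_one_of_dvd_coprimes
      ((hp.coprime_iff_not_dvd.2 P.not_dvd_index).pow_left k) h1 h2
  set Z : Subgroup H := C ⊓ Subgroup.centralizer ((P : Subgroup H) : Set H) with hZdef
  have hZc : Z ≤ Subgroup.center H := by
    intro z hz
    rw [← Subgroup.centralizer_univ, ← Subgroup.coe_top, ← htop, Subgroup.sup_eq_closure,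
      Subgroup.centralizer_closure, Subgroup.mem_centralizer_iff]
    rintro y (hy | hy)
    · exact congrArg Subtype.val (mul_comm (⟨y, hy⟩ : C) ⟨z, hz.1⟩)
    · exact Subgroup.mem_centralizer_iff.1 hz.2 y hy
  haveI hZn : Z.Normal := ⟨fun z hz g => by
    rw [Subgroup.mem_center_iff.1 (hZc hz) g, mul_assoc, mul_inv_cancel, mul_one]; exact hz⟩
  set E : Subgroup H := (P : Subgroup H) ⊔ Z with hEdef
  haveI := Fintype.ofFinite E
  haveI := Fintype.ofFinite C
  have hEe : Cfsg.IsElementary p E := by
    haveI : IsCyclic Z := by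
      refine isCyclic_of_injective (Subgroup.inclusion (inf_le_left : Z ≤ C))
        (Subgroup.inclusion_injective _)
    obtain ⟨x, hx⟩ := IsCyclic.exists_zpow_surjective (G := Z)
    have hxE : (x : H) ∈ E := Subgroup.mem_sup_right x.2
    refine ⟨⟨x, hxE⟩, Subgroup.mem_center_iff.2 fun y => Subtype.ext
      (Subgroup.mem_center_iff.1 (hZc x.2) y), ?_, ?_⟩
    · rw [Subgroup.orderOf_mk]
      exact hCcop.coprime_dvd_left ((Subgroup.orderOf_dvd_natCard C x.2.1))
    · have h1 : (Subgroup.zpowers (⟨x, hxE⟩ : E)) = Z.subgroupOf E := by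
        ext y
        rw [Subgroup.mem_subgroupOf, Subgroup.mem_zpowers_iff]
        constructor
        · rintro ⟨i, rfl⟩
          show ((x : H)) ^ i ∈ Z
          exact Subgroup.zpow_mem _ x.2 i
        · intro hy
          obtain ⟨i, hi⟩ := hx ⟨y, hy⟩
          exact ⟨i, Subtype.ext (by simpa using congrArg Subtype.val hi)⟩
      rw [h1]
      change ∃ k, Z.relIndex E = p ^ k
      rw [hEdef, Subgroup.relIndex_sup_right]
      obtain ⟨j, -, hj⟩ := (Nat.dvd_prime_pow hp).1 (P.card_eq_multiplicity ▸
        (Subgroup.index_dvd_card (Z.subgroupOf (P : Subgroup H))))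
      exact ⟨j, hj⟩
  have hind : ∀ (T : Subgroup H) [Fintype T], T ≠ ⊤ → (fun _ : T => (1 : ℂ)) ∈ pElemSpan p T := by
    intro T _ hT
    refine ih (Nat.card T) ?_ T rfl p hp (isQuasiElem_subgroup hp ⟨C, hCn, hCcyc, hCcop, k, hk⟩ T)
    rw [← hn]
    exact lt_of_le_of_ne (Subgroup.card_le_card_group T) fun h => hT
      (Subgroup.eq_top_of_card_eq T h)
  set F : H → ℂ := Cfsg.indFun E (fun _ : E => (1 : ℂ)) with hF
  have hFc : Cfsg.IsCharacter H F := indFun_isCharacter E
    (isCharacter_of_isIrrCharacter isIrrCharacter_one)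
  have hFm : F ∈ pElemSpan p H := pElemSpan_basic hEe (isCharacter_of_isIrrCharacter isIrrCharacter_one)
  have hone : Cfsg.classInner F (oneIrr H : H → ℂ) = 1 := by
    rw [hF, classInner_indFun E _ (irr_isClassFunction _)]
    exact classInner_irr_self (oneIrr E)
  have hrest : ∀ χ : Cfsg.IrrCharacter H, χ ≠ oneIrr H →
      Cfsg.classInner F (χ : H → ℂ) ≠ 0 → (χ : H → ℂ) ∈ pElemSpan p H := by
    intro χ hχ hne
    obtain ⟨lam, hlam⟩ : ∃ lam : Cfsg.IrrCharacter C,
        Cfsg.classInner (fun c : C => (χ : H → ℂ) c) (lam : C → ℂ) ≠ 0 := by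
      by_contra hall
      push Not at hall
      have hz := eq_zero_of_inner_irr_eq_zero (isClassFunction_of_isCharacter
        (isCharacter_comp (isCharacter_of_isIrrCharacter χ.2) C.subtype)) hall
      exact irr_one_ne_zero χ (congrFun hz 1)
    obtain ⟨L, hL⟩ := exists_hom_of_isMulCommutative mul_comm lam
    by_cases hinv : ∀ g : H, conjFn C (lam : C → ℂ) g = lam
    · exfalso
      -- the restriction to `C` is a multiple of `L`
      have hres : ∀ c : C, (χ : H → ℂ) c = (χ : H → ℂ) 1 * L c := by
        have hset : {f : C → ℂ | ∃ g : H, f = conjFn C (lam : C → ℂ) g} = {(lam : C → ℂ)} := by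
          ext f
          simp only [Set.mem_setOf_eq, Set.mem_singleton_iff]
          exact ⟨fun ⟨g, h⟩ => h.trans (hinv g), fun h => ⟨1, h.trans (conjFn_one C _).symm⟩⟩
        have h := res_eq_smul_sum_conj C χ lam hlam
        rw [hset, finsum_mem_singleton, hL] at h
        have h1 := congrFun h 1
        simp only [Pi.smul_apply, smul_eq_mul, OneMemClass.coe_one, map_one, mul_one] at h1
        intro c
        have h2 := congrFun h c
        simp only [Pi.smul_apply, smul_eq_mul] at h2
        rw [h2, h1]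
      have hS : ∑ e : E, (χ : H → ℂ) e ≠ 0 := by
        intro hS
        apply hne
        rw [hF, classInner_indFun E _ (irr_isClassFunction χ)]
        unfold Cfsg.classInner
        simp only [one_mul, ← map_sum, hS, map_zero, mul_zero]
      have hLZ : ∀ z : C, (z : H) ∈ Z → L z = 1 := by
        intro z hz
        obtain ⟨d, ρ, hirr, hρ⟩ := χ.2
        haveI := hirr
        obtain ⟨μ, hμ⟩ := exists_smul_id_of_commute ρ (ρ z) fun g => by
          rw [← map_mul, ← map_mul, Subgroup.mem_center_iff.1 (hZc hz) g]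
        have hmul : ∀ g : H, (χ : H → ℂ) ((z : H) * g) = μ * (χ : H → ℂ) g := by
          intro g
          rw [← hρ, Representation.character, Representation.character, map_mul, hμ,
            smul_mul_assoc, map_smul, smul_eq_mul]
          rfl
        have hμL : μ = L z := by
          have h := hmul 1
          rw [mul_one, hres z] at h
          exact mul_right_cancel₀ (irr_one_ne_zero χ) (by rw [← h]; ring)
        have hzE : (z : H) ∈ E := Subgroup.mem_sup_right hz
        have h2 : ∑ e : E, (χ : H → ℂ) e = μ * ∑ e : E, (χ : H → ℂ) e := by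
          rw [Finset.mul_sum]
          symm
          refine Fintype.sum_equiv (Equiv.mulLeft (⟨z, hzE⟩ : E)) _ _ fun e => ?_
          rw [← hmul]
          rfl
        rw [← hμL]
        exact mul_right_cancel₀ hS (by rw [one_mul]; exact h2.symm)
      have hLC : ∀ c : C, L c = 1 := by
        intro c
        haveI := Fintype.ofFinite (P : Subgroup H)
        let w : C := ∏ u : (P : Subgroup H), conjEquiv C (u : H) c
        have hwZ : (w : H) ∈ Z := by
          refine ⟨w.2, Subgroup.mem_centralizer_iff.2 fun v hv => ?_⟩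
          have h : conjEquiv C v w = w := by
            rw [map_prod]
            refine Fintype.prod_equiv (Equiv.mulLeft ⟨v, hv⟩) _ _ fun u => ?_
            exact Subtype.ext (by simp [conjEquiv, mul_assoc])
          have h' : v * (w : H) * v⁻¹ = w := congrArg Subtype.val h
          exact mul_inv_eq_iff_eq_mul.1 h'
        have hu : ∀ u : (P : Subgroup H), L (conjEquiv C (u : H) c) = L c := by
          intro u
          have := congrFun (hinv (u : H)) c
          rw [hL] at this
          exact this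
        have hw : L w = L c ^ Nat.card (P : Subgroup H) := by
          simp only [w, map_prod, hu, Finset.prod_const, Finset.card_univ,
            Nat.card_eq_fintype_card]
        have h2 : L c ^ Nat.card C = 1 := by rw [← map_pow, pow_card_eq_one', map_one]
        have h3 := pow_gcd_eq_one.2 ⟨h2, hw.symm.trans (hLZ w hwZ)⟩
        rwa [hCP.gcd_eq_one, pow_one] at h3
      have hker : ∀ c : H, c ∈ C → ∀ g, (χ : H → ℂ) (c * g) = (χ : H → ℂ) g := by
        intro c hc g
        refine Blocks.char_mul_of_apply_eq_one (isCharacter_of_isIrrCharacter χ.2) ?_ g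
        rw [hres ⟨c, hc⟩, hLC, mul_one]
      have hCE : C ⊔ E = ⊤ := by
        rw [eq_top_iff, ← htop]
        exact sup_le le_sup_left (le_sup_left.trans le_sup_right)
      have hH : ∀ h : H, ∑ e : E, (χ : H → ℂ) (h * e) = ∑ e : E, (χ : H → ℂ) e := by
        intro h
        obtain ⟨c, hc, e₀, he₀, rfl⟩ := Subgroup.mem_sup_of_normal_left.1
          (show h ∈ C ⊔ E from hCE ▸ Subgroup.mem_top h)
        refine Fintype.sum_equiv (Equiv.mulLeft (⟨e₀, he₀⟩ : E)) _ _ fun e => ?_
        rw [mul_assoc, hker c hc]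
        rfl
      have hz : ∑ g : H, (χ : H → ℂ) g = 0 := by
        have h := classInner_irr_of_ne hχ
        unfold Cfsg.classInner at h
        simpa [Nat.card_pos.ne'] using h
      have h3 : ∑ h : H, ∑ e : E, (χ : H → ℂ) (h * e) = 0 := by
        rw [Finset.sum_comm]
        refine Finset.sum_eq_zero fun e _ => ?_
        rw [← hz]
        exact Fintype.sum_equiv (Equiv.mulRight (e : H)) _ _ fun h => rfl
      simp only [hH, Finset.sum_const, Finset.card_univ, nsmul_eq_mul] at h3
      exact hS ((mul_eq_zero.1 h3).resolve_left (by exact_mod_cast Fintype.card_ne_zero))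
    · have hlin : (lam : C → ℂ) 1 = 1 := by rw [hL]; exact map_one L
      obtain ⟨T, hT, ψ, hψ, hχψ⟩ := exists_induced_of_not_invariant C χ lam hlin hlam hinv
      haveI := Fintype.ofFinite T
      rw [hχψ]
      refine pElemSpan_ind T ?_
      have h := pElemSpan_mul hψ (hind T hT)
      rwa [show ψ * (fun _ : T => (1 : ℂ)) = ψ from funext fun _ => mul_one _] at h
  have hexp := classFunction_expand (isClassFunction_of_isCharacter hFc)
  rw [← Finset.add_sum_erase _ _ (Finset.mem_univ (oneIrr H)), hone, one_smul] at hexp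
  have h1 : (fun _ : H => (1 : ℂ)) = F - ∑ χ ∈ Finset.univ.erase (oneIrr H),
      Cfsg.classInner F (χ : H → ℂ) • (χ : H → ℂ) := eq_sub_of_add_eq hexp.symm
  rw [h1]
  refine sub_mem hFm (sum_mem fun χ hχ => ?_)
  obtain ⟨m, hm⟩ := exists_nat_classInner hFc χ
  by_cases h0 : Cfsg.classInner F (χ : H → ℂ) = 0
  · rw [h0, zero_smul]; exact zero_mem _
  · rw [hm, Nat.cast_smul_eq_nsmul]
    exact AddSubgroup.nsmul_mem _ (hrest χ (Finset.ne_of_mem_erase hχ) h0) _

theorem one_mem_pElemSpan_of_quasiElem {H : Type u} [Group H] [Fintype H] {p : ℕ} (hp : p.Prime)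
    (hH : IsQuasiElem p H) : (fun _ : H => (1 : ℂ)) ∈ pElemSpan p H :=
  one_mem_pElemSpan_aux (Nat.card H) H rfl p hp hH


/-- Brauer's local induction. -/
theorem exists_const_mem_pElemSpan {G : Type u} [Group G] [Fintype G] {p : ℕ} (hp : p.Prime) :
    ∃ m : ℤ, ¬ (p : ℤ) ∣ m ∧ (fun _ : G => (m : ℂ)) ∈ pElemSpan p G := by
  obtain ⟨m, hm, hmem⟩ := exists_const_mem_pSpan (G := G) hp
  refine ⟨m, hm, ?_⟩
  suffices key : ∀ f : G → ℤ, f ∈ pSpan G p → (fun g => (f g : ℂ)) ∈ pElemSpan p G from key _ hmem
  intro f hf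
  induction hf using AddSubgroup.closure_induction with
  | mem f hf =>
    obtain ⟨H, hH, rfl⟩ := hf
    haveI := Fintype.ofFinite H
    rw [show (fun g => (permFix H g : ℂ)) = Cfsg.indFun H (fun _ : H => (1 : ℂ)) from
      funext fun g => (indFun_one_eq_permFix H g).symm]
    exact pElemSpan_ind H (one_mem_pElemSpan_of_quasiElem hp hH)
  | zero =>
    simp only [Pi.zero_apply, Int.cast_zero]
    exact zero_mem (pElemSpan p G)
  | add a b _ _ ha hb =>
    have := add_mem ha hb
    simpa [Pi.add_def] using this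
  | neg a _ ha =>
    have := neg_mem ha
    simpa [Pi.neg_def] using this

theorem pElemSpan_list {G : Type u} [Group G] [Fintype G] {p : ℕ} {f : G → ℂ} (hf : f ∈ pElemSpan p G) :
    ∃ l : List ((E : Subgroup G) × ((E → ℂ) × ℤ)), (∀ t ∈ l, Cfsg.IsElementary p t.1 ∧ Cfsg.IsCharacter t.1 t.2.1) ∧
      f = (l.map fun t => (t.2.2 : ℂ) • Cfsg.indFun t.1 t.2.1).sum := by
  induction hf using AddSubgroup.closure_induction with
  | mem f hf =>
    obtain ⟨E, φ, hE, hφ, rfl⟩ := hf
    exact ⟨[⟨E, φ, 1⟩], fun t ht => by rw [List.mem_singleton] at ht; rw [ht]; exact ⟨hE, hφ⟩, by simp⟩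
  | zero => exact ⟨[], fun t ht => absurd ht List.not_mem_nil, by simp⟩
  | add u v _ _ hu hv =>
    obtain ⟨l, hl, rfl⟩ := hu
    obtain ⟨l', hl', rfl⟩ := hv
    exact ⟨l ++ l', fun t ht => (List.mem_append.1 ht).elim (hl t) (hl' t), by simp⟩
  | neg u hmem hu =>
    clear hmem
    obtain ⟨l, hl, rfl⟩ := hu
    refine ⟨l.map fun t => ⟨t.1, t.2.1, -t.2.2⟩, fun t ht => ?_, ?_⟩
    · obtain ⟨s, hs, rfl⟩ := List.mem_map.1 ht
      exact hl s hs
    · clear hl
      induction l with
      | nil => simp
      | cons t l ih =>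
        simp only [List.map_cons, List.sum_cons, ← ih, Int.cast_neg, neg_smul, neg_add]

end Cfsg.Agent.CharLead
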