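import Cfsg.Agent.CharLead.Basic
import Mathlib.GroupTheory.GroupAction.MultipleTransitivity

/-!
Permutation characters and double transitivity.
-/

set_option autoImplicit false
set_option linter.all false

open scoped ComplexConjugate
open Representation Module

namespace Cfsg.Agent.CharLead

open Cfsg.Agent.Char

universe u v

variable {G : Type u} [Group G] (X : Type v) [MulAction G X] [Finite X]

noncomputable def permRep : Representation ℂ G (X → ℂ) where
  toFun g :=
    { toFun := fun φ x => φ (g⁻¹ • x)
      map_add' := fun _ _ => rfl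
      map_smul' := fun _ _ => rfl }
  map_one' := by ext; simp
  map_mul' a b := by
    refine LinearMap.ext fun φ => funext fun x => ?_
    show φ ((a * b)⁻¹ • x) = φ (b⁻¹ • (a⁻¹ • x))
    rw [mul_inv_rev, mul_smul]

theorem permRep_character (g : G) :
    (permRep X).character g = (Nat.card (MulAction.fixedBy X g) : ℂ) := by
  classical
  haveI := Fintype.ofFinite X
  rw [Representation.character, LinearMap.trace_eq_matrix_trace ℂ (Pi.basisFun ℂ X), Matrix.trace]
  have : ∀ x : X, (LinearMap.toMatrix (Pi.basisFun ℂ X) (Pi.basisFun ℂ X) (permRep X g)).diag x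
      = if g • x = x then 1 else 0 := by
    intro x
    simp only [Matrix.diag_apply, LinearMap.toMatrix_apply, Pi.basisFun_apply, Pi.basisFun_repr]
    show (Pi.single x (1 : ℂ) : X → ℂ) (g⁻¹ • x) = _
    rw [Pi.single_apply]
    exact if_congr ⟨fun h => by rw [← eq_inv_smul_iff]; exact h.symm,
      fun h => (eq_inv_smul_iff.2 h).symm⟩ rfl rfl
  simp only [this, Finset.sum_boole]
  congr 1
  rw [Nat.card_eq_fintype_card]
  exact (Fintype.card_of_finset' _ (fun x => by simp [MulAction.mem_fixedBy])).symm

theorem isCharacter_fixedBy : Cfsg.IsCharacter G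
    (fun g => (Nat.card (MulAction.fixedBy X g) : ℂ)) := by
  have h := isCharacter_of_rep (permRep (G := G) X)
  convert h using 1
  exact funext fun g => (permRep_character X g).symm

theorem sum_fixedBy [Fintype G] [MulAction.IsPretransitive G X] [Nonempty X] :
    ∑ g : G, (Nat.card (MulAction.fixedBy X g) : ℕ) = Nat.card G := by
  classical
  haveI := Fintype.ofFinite X
  haveI : Fintype (Quotient (MulAction.orbitRel G X)) := Fintype.ofFinite _
  have h := MulAction.sum_card_fixedBy_eq_card_orbits_mul_card_group G X
  haveI := (MulAction.pretransitive_iff_subsingleton_quotient G X).1 inferInstance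
  haveI : Nonempty (Quotient (MulAction.orbitRel G X)) := ⟨Quotient.mk'' (Classical.arbitrary X)⟩
  rw [Fintype.card_eq_one_iff_nonempty_unique.2 ⟨uniqueOfSubsingleton (Classical.arbitrary _)⟩,
    one_mul] at h
  simpa [Nat.card_eq_fintype_card] using h

theorem irr_iff_twoPretransitive [Finite G] [MulAction.IsPretransitive G X] (hX : 2 ≤ Nat.card X) :
    Cfsg.IsIrrCharacter G (fun g => (Nat.card (MulAction.fixedBy X g) : ℂ) - 1) ↔
      MulAction.IsMultiplyPretransitive G X 2 := by
  classical
  haveI := Fintype.ofFinite G
  haveI := Fintype.ofFinite X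
  haveI : Nonempty X := (Finite.card_pos_iff).1 (by omega)
  haveI : Nontrivial X := (Finite.one_lt_card_iff_nontrivial).1 (by omega)
  set π : G → ℂ := fun g => (Nat.card (MulAction.fixedBy X g) : ℂ)
  set f : G → ℂ := fun g => (Nat.card (MulAction.fixedBy X g) : ℂ) - 1
  have hf : f = π - (oneIrr G : G → ℂ) := rfl
  have hπ1 : Cfsg.classInner π (oneIrr G : G → ℂ) = 1 := by
    simp only [Cfsg.classInner, π, oneIrr, map_one, mul_one]
    rw [← Nat.cast_sum, sum_fixedBy]
    exact inv_mul_cancel₀ (by exact_mod_cast Nat.card_pos.ne')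
  have hchar : Cfsg.IsCharacter G f := by
    have hπ : Cfsg.IsCharacter G π := isCharacter_fixedBy X
    refine isCharacter_of_inner_nat ?_ fun χ => ?_
    · intro g x
      simp only [f]
      have := isClassFunction_of_isCharacter hπ g x
      simp only [π] at this
      rw [this]
    · obtain ⟨n, hn⟩ := exists_nat_classInner hπ χ
      rw [hf, classInner_sub_left]
      by_cases h : oneIrr G = χ
      · subst h
        exact ⟨0, by rw [hπ1, classInner_irr_self]; simp⟩
      · exact ⟨n, by rw [hn, classInner_irr_of_ne h, sub_zero]⟩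
  -- orbits on pairs
  haveI : Fintype (Quotient (MulAction.orbitRel G (X × X))) := Fintype.ofFinite _
  set r := Fintype.card (Quotient (MulAction.orbitRel G (X × X)))
  have hpairs : ∑ g : G, Nat.card (MulAction.fixedBy X g) ^ 2 = r * Nat.card G := by
    have h := MulAction.sum_card_fixedBy_eq_card_orbits_mul_card_group G (X × X)
    rw [Nat.card_eq_fintype_card (α := G), ← h]
    refine Finset.sum_congr rfl fun g _ => ?_
    rw [sq, ← Nat.card_prod, ← Nat.card_eq_fintype_card]
    refine Nat.card_congr
      { toFun := fun p => ⟨(p.1.1, p.2.1), Prod.ext p.1.2 p.2.2⟩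
        invFun := fun p => (⟨p.1.1, congrArg Prod.fst p.2⟩, ⟨p.1.2, congrArg Prod.snd p.2⟩)
        left_inv := fun p => rfl
        right_inv := fun p => rfl }
  have hππ : Cfsg.classInner π π = r := by
    simp only [Cfsg.classInner, π, Complex.conj_natCast]
    have : (∑ g : G, (Nat.card (MulAction.fixedBy X g) : ℂ) * (Nat.card (MulAction.fixedBy X g) : ℂ))
        = (r : ℂ) * Nat.card G := by
      rw [← Nat.cast_mul r, ← hpairs]
      push_cast
      exact Finset.sum_congr rfl fun g _ => by ring
    rw [this]
    field_simp
  have hff : Cfsg.classInner f f = (r : ℂ) - 1 := by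
    rw [hf, classInner_sub_left]
    have h1 : Cfsg.classInner π (π - (oneIrr G : G → ℂ)) = (r : ℂ) - 1 := by
      rw [← classInner_conj_symm, classInner_sub_left, map_sub, classInner_conj_symm,
        classInner_conj_symm, hππ, hπ1]
    have h2 : Cfsg.classInner (oneIrr G : G → ℂ) (π - (oneIrr G : G → ℂ)) = 0 := by
      rw [← classInner_conj_symm, classInner_sub_left, hπ1, classInner_irr_self]
      simp
    rw [h1, h2, sub_zero]
  have key : Cfsg.IsIrrCharacter G f ↔ r = 2 := by
    constructor
    · intro h
      have := classInner_irr_self (⟨f, h⟩ : Cfsg.IrrCharacter G)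
      rw [hff] at this
      have : (r : ℂ) = (2 : ℕ) := by push_cast; linear_combination this
      exact_mod_cast this
    · intro h
      exact isIrrCharacter_of_inner_self hchar (by rw [hff, h]; norm_num)
  rw [key, MulAction.is_two_pretransitive_iff]
  obtain ⟨x₀, y₀, hxy⟩ := exists_pair_ne X
  constructor
  · intro hr a b c d hab hcd
    by_contra hno
    push Not at hno
    let q : X × X → Quotient (MulAction.orbitRel G (X × X)) := Quotient.mk''
    have hne : ∀ (u v w : X), u ≠ v → q (u, v) ≠ q (w, w) := by
      intro u v w huv e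
      obtain ⟨g, hg⟩ := MulAction.orbitRel_apply.1 (Quotient.eq''.1 e)
      exact huv ((congrArg Prod.fst hg).symm.trans (congrArg Prod.snd hg))
    have h1 : q (a, b) ≠ q (c, d) := by
      intro e
      obtain ⟨g, hg⟩ := MulAction.orbitRel_apply.1 (Quotient.eq''.1 e.symm)
      exact hno g (congrArg Prod.fst hg) (congrArg Prod.snd hg)
    have h3 : 3 ≤ r := by
      calc 3 = ({q (a, b), q (c, d), q (x₀, x₀)} : Finset _).card := by
            rw [Finset.card_insert_of_notMem, Finset.card_pair (hne c d x₀ hcd)]
            simp [h1, hne a b x₀ hab]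
        _ ≤ r := Finset.card_le_univ _
    omega
  · intro h
    let q : X × X → Quotient (MulAction.orbitRel G (X × X)) := Quotient.mk''
    have hall : ∀ z, z ∈ ({q (x₀, x₀), q (x₀, y₀)} : Finset _) := by
      intro z
      induction z using Quotient.inductionOn' with
      | h p =>
        obtain ⟨u, v⟩ := p
        by_cases huv : u = v
        · subst huv
          obtain ⟨g, hg⟩ := MulAction.exists_smul_eq G x₀ u
          rw [Finset.mem_insert]
          left
          exact Quotient.eq''.2 (MulAction.orbitRel_apply.2 ⟨g, Prod.ext hg hg⟩)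
        · obtain ⟨g, hg1, hg2⟩ := h hxy huv
          rw [Finset.mem_insert, Finset.mem_singleton]
          right
          exact Quotient.eq''.2 (MulAction.orbitRel_apply.2 ⟨g, Prod.ext hg1 hg2⟩)
    have hne : q (x₀, x₀) ≠ q (x₀, y₀) := by
      intro e
      obtain ⟨g, hg⟩ := MulAction.orbitRel_apply.1 (Quotient.eq''.1 e.symm)
      exact hxy ((congrArg Prod.fst hg).symm.trans (congrArg Prod.snd hg))
    show Finset.univ.card = 2
    rw [← Finset.eq_univ_of_forall hall, Finset.card_pair hne]

end Cfsg.Agent.CharLead
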